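import Cfsg.Agent.Lib.SteinbergPres.Cover.Centre
import Cfsg.Agent.Lib.Chev.Orders

/-!
A root embedding of data respecting the commutator formula gives a map of the presented group into the larger
Chevalley group; it separates the torus.
-/

set_option autoImplicit false

namespace Cfsg.Agent.Lib.SteinbergPres.Cover

open Cfsg.Lie Cfsg.Agent.Lib.Chev

/-- `ι` (packed) embeds the roots of `T` into those of `T'`, fundamental `i` to fundamental `i` -/
def embCheck (T T' : Fast) (io : ℕ) : Bool :=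
  Nat.ble T.l T'.l &&
  (allBelow T.l fun i => Nat.beq (pk 8 io (T.sp i)) (T'.sp i)) &&
  allBelow T.n fun r => Nat.blt (pk 8 io r) T'.n && Nat.beq (pk 8 io (T.ng r)) (T'.ng (pk 8 io r)) &&
    (r == 0 || Nat.blt (pk 8 io (r - 1)) (pk 8 io r)) &&
    allBelow T.n fun s => decide (T'.commT (pk 8 io r) (pk 8 io s) =
      (T.commT r s).map fun c => (pk 8 io c.1, c.2))

variable {D D' : ChevalleyDatum} {T T' : Fast} {F : Type*} [Field F]

theorem emb_spec (C : Checked D T) (C' : Checked D' T') {io : ℕ} (h : embCheck T T' io = true) :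
    D.rank ≤ D'.rank ∧ (∀ i < D.rank, pk 8 io (D.simple i) = D'.simple i) ∧
    ∀ r < D.nroots, pk 8 io r < D'.nroots ∧ pk 8 io (D.neg r) = D'.neg (pk 8 io r) ∧
      ∀ s < D.nroots, (s ≠ r → pk 8 io s ≠ pk 8 io r) ∧ ∀ t u : F,
        D'.commWord F (pk 8 io r) (pk 8 io s) t u =
          (D.commWord F r s t u).map fun p => (pk 8 io p.1, p.2) := by
  simp only [embCheck, Bool.and_eq_true, allBelow_iff, Bool.or_eq_true, decide_eq_true_eq, beq_iff_eq,
    Nat.blt_eq] at h
  obtain ⟨⟨hl, hsp⟩, hr⟩ := h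
  have hl' : D.rank ≤ D'.rank := by
    rw [C.tables.rank, C'.tables.rank]; exact Nat.ble_eq.mp hl
  have hlt : ∀ r < D.nroots, pk 8 io r < D'.nroots := fun r hr' => by
    rw [C.tables.nroots] at hr'
    rw [C'.tables.nroots]; exact (hr r hr').1.1.1
  have hmono : ∀ r < D.nroots, ∀ s < r, pk 8 io s < pk 8 io r := by
    intro r
    induction r with
    | zero => intro _ s hs; omega
    | succ r ih =>
      intro hr' s hs
      have h1 := (hr (r + 1) (C.tables.nroots ▸ hr')).1.2.resolve_left (Nat.succ_ne_zero r)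
      rw [Nat.add_sub_cancel] at h1
      rcases Nat.lt_succ_iff_lt_or_eq.1 hs with h | rfl
      · exact lt_trans (ih (by omega) s h) h1
      · exact h1
  refine ⟨hl', fun i hi => ?_, fun r hr' => ⟨hlt r hr', ?_, fun s hs => ⟨fun hne => ?_, fun t u => ?_⟩⟩⟩
  · rw [C.tables.simple i hi, C'.tables.simple i (hi.trans_le hl')]
    exact Nat.eq_of_beq_eq_true (hsp i (C.tables.rank ▸ hi))
  · rw [C.tables.neg r hr', C'.tables.neg _ (hlt r hr')]
    exact Nat.eq_of_beq_eq_true (hr r (C.tables.nroots ▸ hr')).1.1.2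
  · rcases lt_or_gt_of_ne hne with h | h
    · exact (hmono r hr' s h).ne
    · exact (hmono s hs r h).ne'
  · have e := (hr r (C.tables.nroots ▸ hr')).2 s (C.tables.nroots ▸ hs)
    rw [C.commT_eq hr' hs, C'.commT_eq (hlt r hr') (hlt s hs)] at e
    simp only [ChevalleyDatum.commWord, e, List.map_map]
    rfl

theorem emb_word (C : Checked D T) (C' : Checked D' T') {io : ℕ} :
    ∀ w : List (ℕ × F), (∀ p ∈ w, p.1 < D.nroots) →
      FreeGroup.lift (fun p : Fin D.nroots × F => C'.xg (pk 8 io p.1) p.2) (D.stWord w) =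
        C'.wg (w.map fun p => (pk 8 io p.1, p.2))
  | [], _ => by simp [ChevalleyDatum.stWord, Checked.wg]
  | p :: w, h => by
    have ih := emb_word C C' (io := io) w fun q hq => h q (by simp [hq])
    rw [ChevalleyDatum.stWord] at ih ⊢
    rw [List.map_cons, List.prod_cons, map_mul, ih, List.map_cons, C'.wg_cons, ChevalleyDatum.stX,
      dif_pos (h p (by simp)), FreeGroup.lift_apply_of]

theorem emb_rels (C : Checked D T) (C' : Checked D' T') {io : ℕ} (h : embCheck T T' io = true) :
    ∀ g ∈ D.steinbergRels F,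
      FreeGroup.lift (fun p : Fin D.nroots × F => C'.xg (pk 8 io p.1) p.2) g = 1 := by
  obtain ⟨-, -, hr⟩ := emb_spec (F := F) C C' h
  have e1 : ∀ r < D.nroots, ∀ t : F,
      FreeGroup.lift (fun p : Fin D.nroots × F => C'.xg (pk 8 io p.1) p.2) (D.stX r t) =
        C'.xg (pk 8 io r) t := fun r hr' t => by
    rw [ChevalleyDatum.stX, dif_pos hr', FreeGroup.lift_apply_of]
  rintro g ((⟨r, t, u, h', rfl⟩ | ⟨r, s, t, u, h', hs, h1, h2, rfl⟩) | ⟨r, t, u, h', ht, hu, rfl⟩)
  · simp only [map_mul, map_inv, e1 _ h']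
    rw [C'.xg_add (hr r h').1, mul_inv_cancel]
  · obtain ⟨hlt, hneg, hs'⟩ := hr r h'
    obtain ⟨hne, hw⟩ := hs' s hs
    have hne2 : pk 8 io s ≠ D'.neg (pk 8 io r) := by
      rw [← hneg]
      exact ((hr (D.neg r) (C.root.neg_lt r h')).2.2 s hs).1 h2
    simp only [map_mul, map_inv, e1 _ h', e1 _ hs, emb_word C C' _ (C.commWord_lt h' hs t u), ← hw]
    rw [mul_assoc _ (C'.xg _ u) (C'.xg _ t), C'.comm hlt (hr s hs).1 (hne h1) hne2 t u]
    group
  · have hlt : ∀ a : F, ∀ p ∈ D.hWord r a, p.1 < D.nroots := fun a p hp => by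
      rcases List.mem_append.1 hp with h | h <;> exact C.nWord_lt h' _ p h
    have hmap : ∀ a : F, (D.hWord r a).map (fun p => (pk 8 io p.1, p.2)) = D'.hWord (pk 8 io r) a := fun a => by
      simp [ChevalleyDatum.hWord, ChevalleyDatum.nWord, (hr r h').2.1]
    simp only [map_mul, map_inv, ChevalleyDatum.stH, emb_word C C' _ (hlt _), hmap, mul_inv_eq_one]
    refine Units.ext ?_
    rw [Units.val_mul, C'.val_wg, C'.val_wg, C'.val_wg]
    exact C'.hMat_mul (hr r h').1 ht hu

/-- a root embedding into a datum with trivial Cartan kernel separates the torus -/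
theorem tau_injective (C : Checked D T) (C' : Checked D' T') {io : ℕ} (h : embCheck T T' io = true)
    (hC' : ∀ c : Fin D'.rank → Fˣ, C'.cartanMap c = 1 → c = 1)
    (θ : D.SteinbergGroup F →* ↥(D.group F))
    (hθ : ∀ (r : ℕ) (t : F), r < D.nroots →
      ((θ (D.stGen F r t) : GL D.Idx F) : Matrix D.Idx D.Idx F) = D.x F r t)
    (hcc : coverCheck T = true) : Function.Injective (tau (C := C) θ hθ hcc) := by
  obtain ⟨hl, hsp, hr⟩ := emb_spec (F := F) C C' h
  let ψ : D.SteinbergGroup F →* GL D'.Idx F := PresentedGroup.toGroup (emb_rels C C' h)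
  let e : (Fin D.rank → Fˣ) →* (Fin D'.rank → Fˣ) :=
    MonoidHom.mk' (fun c j => if hj : (j : ℕ) < D.rank then c ⟨j, hj⟩ else 1) fun c c' => by
      funext j
      by_cases hj : (j : ℕ) < D.rank <;> simp [hj]
  have key : ψ.comp (tau (C := C) θ hθ hcc) = C'.torusHom.comp e := by
    refine MonoidHom.pi_ext fun i t => ?_
    have he : e (Pi.mulSingle i t) = Pi.mulSingle (Fin.castLE hl i) t := by
      funext j
      simp only [e, MonoidHom.mk'_apply]
      by_cases hji : j = Fin.castLE hl i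
      · subst hji; simp [i.2]
      · rw [Pi.mulSingle_eq_of_ne hji]
        split
        · next hj =>
          rw [Pi.mulSingle_eq_of_ne]
          intro h'
          exact hji (Fin.ext (by simpa using congrArg Fin.val h'))
        · rfl
    rw [MonoidHom.comp_apply, MonoidHom.comp_apply, tau_single, he, torusHom_single]
    show ψ (wdOf (fun r t => PresentedGroup.mk (D.steinbergRels F) (D.stX r t)) (D.hWord (D.simple i) (t : F))) = _
    have hw : ∀ p ∈ D.hWord (D.simple i) (t : F), p.1 < D.nroots := fun p hp => by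
      rcases List.mem_append.1 hp with h | h <;> exact C.nWord_lt (C.root.simple_lt i i.2) _ p h
    rw [← mk_word]
    show FreeGroup.lift _ (D.stWord _) = _
    rw [emb_word C C' _ hw]
    simp [ChevalleyDatum.hWord, ChevalleyDatum.nWord, Checked.hg, hsp i i.2,
      (hr _ (C.root.simple_lt i i.2)).2.1]
  refine (injective_iff_map_eq_one _).2 fun c hc => ?_
  have h1 : C'.torusHom (e c) = 1 := by
    rw [← MonoidHom.comp_apply, ← key, MonoidHom.comp_apply, hc, map_one]
  have h2 : e c = 1 := hC' _ ((C'.torus_eq_one_iff _).1 h1)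
  funext i
  have h3 := congrFun h2 (Fin.castLE hl i)
  simpa [e, i.2] using h3

theorem cartanMap_injective (C : Checked D T) {P P' R R' : ℕ → ℕ → ℤ}
    (h : ∀ i < D.rank, ∀ j < D.rank,
      (∑ k ∈ Finset.range D.rank, P i k * P' k j) = (if i = j then 1 else 0) ∧
      (∑ k ∈ Finset.range D.rank, R i k * R' k j) = (if i = j then 1 else 0) ∧
      T.A i (T.sp j) = ∑ k ∈ Finset.range D.rank, P i k * R k j)
    (c : Fin D.rank → Fˣ) (hc : C.cartanMap c = 1) : c = 1 := by
  have e : C.cartanMap c = mapM (l := D.rank) R (mapM (l := D.rank) P c) := by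
    rw [mapM_comp]
    funext j
    show ∏ i : Fin D.rank, c i ^ T.A i (T.sp j) =
      ∏ i : Fin D.rank, c i ^ (∑ k ∈ Finset.range D.rank, P i k * R k j)
    exact Finset.prod_congr rfl fun i _ => by rw [(h i i.2 j j.2).2.2]
  rw [e] at hc
  have h1 := congrArg (mapM (G := Fˣ) (l := D.rank) R') hc
  rw [mapM_comp, map_one, mapM_one fun i hi j hj => (h i hi j hj).2.1] at h1
  have h2 := congrArg (mapM (G := Fˣ) (l := D.rank) P') h1
  rwa [mapM_comp, map_one, mapM_one fun i hi j hj => (h i hi j hj).1] at h2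

theorem cartanMap_injective_of_smith (C : Checked D T) {P P' R R' : ℕ → ℕ → ℤ} {d : List ℕ}
    (hs : smithCheck T P P' R R' d = true) (hd : ∀ x ∈ d, x = 1)
    (c : Fin D.rank → Fˣ) (hc : C.cartanMap c = 1) : c = 1 := by
  simp only [smithCheck, allBelow_iff, Bool.and_eq_true, decide_eq_true_eq] at hs
  rw [← C.tables.rank] at hs
  refine cartanMap_injective C (fun i hi j hj =>
    ⟨(hs i hi j hj).1.1.1, (hs i hi j hj).1.2, ?_⟩) c hc
  rw [(hs i hi j hj).2]
  refine Finset.sum_congr rfl fun k _ => ?_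
  have : d.getD k 1 = 1 := by
    rw [List.getD_eq_getElem?_getD]
    rcases hk : d[k]? with _ | x
    · rfl
    · exact hd x (List.mem_of_getElem? hk)
  rw [this, Nat.cast_one, one_mul]

end Cfsg.Agent.Lib.SteinbergPres.Cover
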