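import Cfsg.Agent.Lib.SteinbergPres.Cover.Inst
import Cfsg.Agent.Lib.Chev.Diag
import Mathlib.GroupTheory.NoncommPiCoprod

/-!
`H̄` of the presented group as the image of the torus; the kernel of the map to the Chevalley group.
-/

set_option autoImplicit false

namespace Cfsg.Agent.Lib.SteinbergPres.Cover

open Cfsg.Lie Cfsg.Agent.Lib.Chev

variable {D : ChevalleyDatum} {T : Fast} {F : Type*} [Field F] {C : Checked D T}
  (θ : D.SteinbergGroup F →* ↥(D.group F))
  (hθ : ∀ (r : ℕ) (t : F), r < D.nroots →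
      ((θ (D.stGen F r t) : GL D.Idx F) : Matrix D.Idx D.Idx F) = D.x F r t)

theorem stGrp_R3 {r : ℕ} (hr : r < D.nroots) {t u : F} (ht : t ≠ 0) (hu : u ≠ 0) :
    (stGrp C θ hθ).wd (D.hWord r t) * (stGrp C θ hθ).wd (D.hWord r u) =
      (stGrp C θ hθ).wd (D.hWord r (t * u)) := by
  have h := (PresentedGroup.mk_eq_one_iff (rels := D.steinbergRels F)).2
    (Subgroup.subset_normalClosure (Or.inr ⟨r, t, u, hr, ht, hu, rfl⟩))
  simp only [map_mul, map_inv, ChevalleyDatum.stH, mk_word, mul_inv_eq_one] at h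
  exact h

/-- `t ↦ h̄_p(t)` -/
def hbHom (i : Fin D.rank) : Fˣ →* D.SteinbergGroup F :=
  MonoidHom.mk' (fun t => (stGrp C θ hθ).hb i (t : F)) fun t u =>
    (stGrp_R3 θ hθ (C.root.simple_lt i i.2) (Units.ne_zero t) (Units.ne_zero u)).symm

theorem hb_commute (hcc : coverCheck T = true) {i j : ℕ} (hi : i < D.rank) (hj : j < D.rank) {t u : F}
    (ht : t ≠ 0) (hu : u ≠ 0) : Commute ((stGrp C θ hθ).hb i t) ((stGrp C θ hθ).hb j u) := by
  set X := stGrp C θ hθ with hX
  set χ : F := t ^ D.cartan i (D.simple j) with hχ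
  have hχ0 : χ ≠ 0 := zpow_ne_zero _ ht
  have hmul : X.hb j (χ * u) = X.hb j χ * X.hb j u :=
    (stGrp_R3 θ hθ (C.root.simple_lt j hj) hχ0 hu).symm
  have hmul' : X.hb j χ * X.hb j u = X.hb j u * X.hb j χ := by
    rw [← hmul, mul_comm χ u]; exact (stGrp_R3 θ hθ (C.root.simple_lt j hj) hu hχ0).symm
  have key : X.hb i t * X.hb j u * (X.hb i t)⁻¹ = X.hb j u := by
    calc X.hb i t * X.hb j u * (X.hb i t)⁻¹
        = (X.hb i t * X.nb j u * (X.hb i t)⁻¹) * (X.hb i t * X.nb j (-1) * (X.hb i t)⁻¹) := by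
          rw [X.hb_eq j u]; group
      _ = X.nb j (χ * u) * X.nb j (χ * -1) := by
          rw [X.hb_conj_nb hcc hj hi ht, X.hb_conj_nb hcc hj hi ht]
      _ = X.hb j (χ * u) * (X.hb j χ)⁻¹ := by
          rw [X.hb_eq j (χ * u), X.hb_eq j χ, mul_inv_rev, X.nb_inv hj, X.nb_inv hj, neg_neg, mul_neg_one,
            ← X.nb_inv hj 1]
          group
      _ = X.hb j u := by rw [hmul, hmul']; group
  rw [commute_iff_eq, ← mul_inv_eq_iff_eq_mul]
  exact key

/-- the torus of the presented group -/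
noncomputable def tau (hcc : coverCheck T = true) : (Fin D.rank → Fˣ) →* D.SteinbergGroup F :=
  MonoidHom.noncommPiCoprod (hbHom (C := C) θ hθ) fun i j _ t u =>
    hb_commute θ hθ hcc i.2 j.2 (Units.ne_zero t) (Units.ne_zero u)

theorem tau_single (hcc : coverCheck T = true) (i : Fin D.rank) (t : Fˣ) :
    tau (C := C) θ hθ hcc (Pi.mulSingle i t) = (stGrp C θ hθ).hb i (t : F) :=
  MonoidHom.noncommPiCoprod_mulSingle _ _ _

theorem torusHom_single (C : Checked D T) (i : Fin D.rank) (t : Fˣ) :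
    C.torusHom (Pi.mulSingle i t) = C.hg (D.simple i) (t : F) := by
  refine Units.ext ?_
  show ((C.torus _ : GL D.Idx F) : Matrix D.Idx D.Idx F) = _
  rw [C.val_torus, C.val_hg, C.hMat_simple i.2 (Units.ne_zero t)]
  refine dg_congr fun v _ => ?_
  rw [Checked.chrOf, Finset.prod_eq_single i (fun j _ hj => by rw [Pi.mulSingle_eq_of_ne hj, one_zpow])
    (by simp), Pi.mulSingle_eq_same, Units.val_zpow_eq_zpow_val]

theorem pr_tau (hcc : coverCheck T = true) :
    ((D.group F).subtype.comp θ).comp (tau (C := C) θ hθ hcc) = C.torusHom := by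
  refine MonoidHom.pi_ext fun i t => ?_
  rw [MonoidHom.comp_apply, tau_single, torusHom_single]
  exact (stGrp C θ hθ).pr_hb i.2 (t : F)

theorem H_le_range (hcc : coverCheck T = true) : (stGrp C θ hθ).H ≤ (tau (C := C) θ hθ hcc).range := by
  rw [StGen.H, Subgroup.closure_le]
  rintro _ ⟨i, t, hi, ht, rfl⟩
  exact ⟨Pi.mulSingle ⟨i, hi⟩ (Units.mk0 t ht), tau_single θ hθ hcc _ _⟩

/-- the kernel is the image of the kernel of the Cartan map -/
theorem ker_eq_map (hcc : coverCheck T = true) :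
    θ.ker = ((C.cartanMap (F := F)).ker).map (tau (C := C) θ hθ hcc) := by
  rw [← C.ker_torusHom, ← pr_tau θ hθ hcc]
  refine le_antisymm ?_ ?_
  · intro g hg
    rw [← mem_ker_pr (stGrp C θ hθ) rfl] at hg
    obtain ⟨c, rfl⟩ := H_le_range θ hθ hcc ((stGrp C θ hθ).ker_le hcc hg).2
    exact ⟨c, hg, rfl⟩
  · rintro _ ⟨c, hc, rfl⟩
    rw [← mem_ker_pr (stGrp C θ hθ) rfl]
    exact hc

end Cfsg.Agent.Lib.SteinbergPres.Cover
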