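import Cfsg.Prelude.Def_KGroupFacts
import Cfsg.Agent.Lib.SteinbergPres.Cover.Centre

/-!
Trivial Schur multiplier from splitting of central extensions.
-/

set_option autoImplicit false

namespace Cfsg.Agent.Lib.SteinbergPres.Cover

open Cfsg.Lie Cfsg.Agent.Lib.Chev

universe u

/-- if every finite central extension of a finite group splits, its multiplier is trivial -/
theorem hasCyclic_one_of_section {G : Type u} [Group G] [Finite G]
    (h : ∀ (Γ : Type u) [Group Γ] [Finite Γ] (σ : Γ →* G), Function.Surjective σ →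
      σ.ker ≤ Subgroup.center Γ → ∃ τ : G →* Γ, σ.comp τ = MonoidHom.id G) :
    Cfsg.HasCyclicSchurMultiplier G 1 := by
  haveI : Subsingleton (Multiplicative (ZMod 1)) := Multiplicative.toAdd.injective.subsingleton
  have hid : (MonoidHom.id G).ker = ⊥ := (MonoidHom.ker_eq_bot_iff _).2 Function.injective_id
  haveI : Subsingleton ↥(MonoidHom.id G).ker := ⟨fun a b => Subtype.ext (by
    have ha : (a : G) = 1 := a.2
    have hb : (b : G) = 1 := b.2
    rw [ha, hb])⟩
  haveI : Unique ↥(MonoidHom.id G).ker := uniqueOfSubsingleton 1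
  haveI : Unique (Multiplicative (ZMod 1)) := uniqueOfSubsingleton 1
  refine ⟨⟨G, inferInstance, inferInstance, MonoidHom.id G,
    ⟨Function.surjective_id, hid.trans_le bot_le, hid.trans_le bot_le⟩, ⟨MulEquiv.ofUnique⟩⟩, ?_⟩
  intro Γ _ _ σ hσ
  obtain ⟨hs, hc, hd⟩ := hσ
  obtain ⟨τ, hτ⟩ := h Γ σ hs hc
  have hστ : ∀ g, σ (τ g) = g := fun g => DFunLike.congr_fun hτ g
  have hle : commutator Γ ≤ τ.range := by
    rw [commutator_eq_closure, Subgroup.closure_le]
    rintro _ ⟨a, b, rfl⟩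
    obtain ⟨z, hz, ha⟩ : ∃ z ∈ Subgroup.center Γ, a = τ (σ a) * z :=
      ⟨(τ (σ a))⁻¹ * a, hc (by rw [MonoidHom.mem_ker, map_mul, map_inv, hστ, inv_mul_cancel]), by group⟩
    obtain ⟨w, hw, hb⟩ : ∃ w ∈ Subgroup.center Γ, b = τ (σ b) * w :=
      ⟨(τ (σ b))⁻¹ * b, hc (by rw [MonoidHom.mem_ker, map_mul, map_inv, hστ, inv_mul_cancel]), by group⟩
    refine ⟨σ a * σ b * (σ a)⁻¹ * (σ b)⁻¹, ?_⟩
    rw [map_mul, map_mul, map_mul, map_inv, map_inv, commutatorElement_def]
    set A := τ (σ a)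
    set B := τ (σ b)
    have hz' := fun y => Subgroup.mem_center_iff.1 hz y
    have hw' := fun y => Subgroup.mem_center_iff.1 hw y
    symm
    calc a * b * a⁻¹ * b⁻¹ = A * (z * (B * w) * z⁻¹) * A⁻¹ * w⁻¹ * B⁻¹ := by rw [ha, hb]; group
      _ = A * (B * w) * A⁻¹ * w⁻¹ * B⁻¹ := by rw [← hz' (B * w)]; group
      _ = A * B * (w * A⁻¹) * w⁻¹ * B⁻¹ := by group
      _ = A * B * A⁻¹ * B⁻¹ := by rw [← hw' A⁻¹]; group
  refine ⟨1, fun z => ⟨1, ?_⟩⟩
  obtain ⟨g, hg⟩ := hle (hd z.2)
  refine Subtype.ext ?_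
  have h1 : σ (τ g) = 1 := by rw [hg]; exact z.2
  rw [hστ] at h1
  rw [MonoidHom.one_apply, OneMemClass.coe_one, ← hg, h1, map_one]

/-- transport of splitting along a surjection with trivial kernel -/
theorem exists_section_of_bijective {U G Γ : Type*} [Group U] [Group G] [Group Γ] (e : U →* G)
    (he : Function.Bijective e) (σ : Γ →* G) (τ : U →* Γ) (hτ : σ.comp τ = e) :
    ∃ τ' : G →* Γ, σ.comp τ' = MonoidHom.id G := by
  refine ⟨τ.comp (MulEquiv.ofBijective e he).symm.toMonoidHom, MonoidHom.ext fun g => ?_⟩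
  have := DFunLike.congr_fun hτ ((MulEquiv.ofBijective e he).symm g)
  rw [MonoidHom.comp_apply] at this
  rw [MonoidHom.comp_apply, MonoidHom.comp_apply, MulEquiv.coe_toMonoidHom, this, MonoidHom.id_apply]
  exact (MulEquiv.ofBijective e he).apply_symm_apply g

theorem finite_of_ker {U G : Type*} [Group U] [Group G] [Finite G] (θ : U →* G) [Finite θ.ker] :
    Finite U := by
  haveI : Finite (U ⧸ θ.ker) := Finite.of_injective _ (QuotientGroup.kerLift_injective θ)
  exact Finite.of_equiv _ (Subgroup.groupEquivQuotientProdSubgroup (s := θ.ker)).symm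

/-- the presented group over a finite field is finite -/
theorem finite_steinbergGroup {D : ChevalleyDatum} {T : Fast} {F : Type*} [Field F] [Finite F]
    (C : Checked D T) (hcc : coverCheck T = true) (θ : D.SteinbergGroup F →* ↥(D.group F))
    (hθ : ∀ (r : ℕ) (t : F), r < D.nroots →
      ((θ (D.stGen F r t) : GL D.Idx F) : Matrix D.Idx D.Idx F) = D.x F r t) :
    Finite (D.SteinbergGroup F) := by
  have : Finite θ.ker := by
    rw [ker_eq_map (C := C) θ hθ hcc]
    exact ((Set.toFinite _).image _).to_subtype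
  exact finite_of_ker θ

end Cfsg.Agent.Lib.SteinbergPres.Cover
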