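import Cfsg.Agent.Lib.SteinbergPres.Cover.Split

/-!
Lifts of a finite Chevalley group through central extensions whose kernel has no `p`-torsion, `p` the
characteristic.
-/

set_option autoImplicit false

namespace Cfsg.Agent.Lib.SteinbergPres.Cover

open Cfsg.Lie Cfsg.Agent.Lib.Chev

variable {D : ChevalleyDatum} {T : Fast} {F : Type*} [Field F]

open Classical in
/-- the Chevalley group itself -/
noncomputable def grpGen (C : Checked D T) (F : Type*) [Field F] : StGen C F ↥(D.group F) where
  x r t := if h : r < D.nroots then ⟨C.xg r t, C.xg_mem_group h t⟩ else 1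
  pr := (D.group F).subtype
  x_add r hr t u := by
    simp only [dif_pos hr]
    exact Subtype.ext (C.xg_add hr t u)
  x_comm r hr s hs h1 h2 t u := by
    have e : ∀ w : List (ℕ × F), (∀ p ∈ w, p.1 < D.nroots) →
        ((wdOf (fun r t => if h : r < D.nroots then (⟨C.xg r t, C.xg_mem_group h t⟩ : ↥(D.group F)) else 1) w :
          ↥(D.group F)) : GL D.Idx F) = C.wg w := by
      intro w hw
      induction w with
      | nil => rfl
      | cons p w ih =>
        simp only [wdOf, List.map_cons, List.prod_cons, Subgroup.coe_mul] at ih ⊢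
        rw [dif_pos (hw p (by simp)), ih fun q hq => hw q (by simp [hq]), C.wg_cons]
    refine Subtype.ext ?_
    rw [Subgroup.coe_mul, Subgroup.coe_mul, Subgroup.coe_mul, e _ (C.commWord_lt hr hs t u), dif_pos hr,
      dif_pos hs]
    exact C.comm hr hs h1 h2 t u
  pr_x r hr t := by simp [dif_pos hr]
  gen := by
    classical
    rw [eq_top_iff]
    rintro ⟨g, hg⟩ -
    have h : D.group F ≤ (Subgroup.closure {g : ↥(D.group F) | ∃ (r : ℕ) (t : F), r < D.nroots ∧
        g = if h : r < D.nroots then ⟨C.xg r t, C.xg_mem_group h t⟩ else 1}).map (D.group F).subtype :=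
      C.group_le fun r hr t => ⟨⟨C.xg r t, C.xg_mem_group hr t⟩,
        Subgroup.subset_closure ⟨r, t, hr, by rw [dif_pos hr]⟩, rfl⟩
    obtain ⟨a, ha, e⟩ := h hg
    rwa [show (⟨g, hg⟩ : ↥(D.group F)) = a from Subtype.ext e.symm]

/-- a system of lifts gives a homomorphism from the cover -/
theorem exists_cover_hom {C : Checked D T} {G : Type*} [Group G] {X : StGen C F G} {E : Type*} [Group E]
    {π : E →* G} (Y : Lift X π) :
    ∃ τ : D.SteinbergCover F →* E, ∀ r < D.nroots, ∀ t : F, π (τ (D.scGen F r t)) = X.x r t := by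
  have e1 : ∀ r < D.nroots, ∀ t : F,
      FreeGroup.lift (fun p : Fin D.nroots × F => Y.φ p.1 p.2) (D.stX r t) = Y.φ r t := fun r hr t => by
    rw [ChevalleyDatum.stX, dif_pos hr, FreeGroup.lift_apply_of]
  have ew : ∀ w : List (ℕ × F), (∀ p ∈ w, p.1 < D.nroots) →
      FreeGroup.lift (fun p : Fin D.nroots × F => Y.φ p.1 p.2) (D.stWord w) = wdOf Y.φ w := by
    intro w hw
    induction w with
    | nil => simp [ChevalleyDatum.stWord, wdOf]
    | cons p w ih =>
      simp only [ChevalleyDatum.stWord, wdOf, List.map_cons, List.prod_cons, map_mul] at ih ⊢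
      rw [e1 _ (hw p (by simp)), ih fun q hq => hw q (by simp [hq])]
  have hrels : ∀ g ∈ D.steinbergRelsAB F,
      FreeGroup.lift (fun p : Fin D.nroots × F => Y.φ p.1 p.2) g = 1 := by
    rintro g (⟨r, t, u, hr, rfl⟩ | ⟨r, s, t, u, hr, hs, h1, h2, rfl⟩)
    · simp only [map_mul, map_inv, e1 _ hr]
      rw [Y.add r hr, mul_inv_cancel]
    · simp only [map_mul, map_inv, e1 _ hr, e1 _ hs, ew _ (C.commWord_lt hr hs t u)]
      rw [mul_assoc _ (Y.φ s u) (Y.φ r t), Y.rel_all hr hs h1 h2 t u]
      group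
  refine ⟨PresentedGroup.toGroup hrels, fun r hr t => ?_⟩
  rw [← Y.π_φ r hr t, ← e1 r hr t]
  rfl

/-- over a field of characteristic `p`, a finite central extension with no `p`-torsion in the kernel has
such lifts -/
theorem exists_lift_modP {C : Checked D T} {G : Type*} [Group G] (X : StGen C F G) (p : ℕ) [Fact p.Prime]
    [CharP F p] {E : Type*} [Group E] [Finite E] {π : E →* G} (hπ : Function.Surjective π)
    (hc : π.ker ≤ Subgroup.center E) (htor : ∀ z ∈ π.ker, z ^ p = 1 → z = 1) : Nonempty (Lift X π) := by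
  have hp : p.Prime := Fact.out
  set m := Nat.card π.ker with hm
  have hcop : Nat.Coprime p m := by
    rw [hp.coprime_iff_not_dvd]
    intro hdvd
    obtain ⟨z, hz⟩ := exists_prime_orderOf_dvd_card' (G := π.ker) p hdvd
    have h1 : (z : E) ^ p = 1 := by
      rw [← Subgroup.coe_pow, ← hz, pow_orderOf_eq_one, Subgroup.coe_one]
    have h2 : z = 1 := Subtype.ext (htor z z.2 h1)
    rw [h2, orderOf_one] at hz
    exact hp.ne_one hz.symm
  obtain ⟨k, hk1, hk0⟩ := Nat.chineseRemainder hcop 1 0
  have hmk : ∀ z : E, π z = 1 → z ^ k = 1 := fun z hz => by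
    obtain ⟨j, rfl⟩ := Nat.modEq_zero_iff_dvd.1 hk0
    have h0 : (⟨z, hz⟩ : π.ker) ^ m = 1 := pow_card_eq_one'
    have h0' : z ^ m = 1 := congrArg Subtype.val h0
    rw [pow_mul, h0', one_pow]
  have hord : ∀ r < D.nroots, ∀ t : F, X.x r t ^ p = 1 := fun r hr t => by
    have h : ∀ n : ℕ, X.x r t ^ n = X.x r (n * t) := by
      intro n
      induction n with
      | zero => simp [X.x_zero hr]
      | succ n ih => rw [pow_succ, ih, X.x_add r hr]; congr 1; push_cast; ring
    rw [h, CharP.cast_eq_zero F p, zero_mul, X.x_zero hr]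
  let L := Function.surjInv hπ
  have hL : ∀ g, π (L g) = g := Function.surjInv_eq hπ
  let φ : ℕ → F → E := fun r t => L (X.x r t) ^ k
  have hπφ : ∀ r < D.nroots, ∀ t, π (φ r t) = X.x r t := fun r hr t => by
    show π (L (X.x r t) ^ k) = _
    rw [map_pow, hL, ← pow_mod_natCard, pow_mod_natCard]
    have hp1 := hord r hr t
    conv_lhs => rw [← Nat.mod_add_div k p]
    rw [hk1, Nat.mod_eq_of_lt hp.one_lt, pow_add, pow_one, pow_mul, hp1, one_pow, mul_one]
  have hφp : ∀ r < D.nroots, ∀ t, φ r t ^ p = 1 := fun r hr t => by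
    show (L (X.x r t) ^ k) ^ p = 1
    rw [← pow_mul, mul_comm, pow_mul]
    exact hmk _ (by rw [map_pow, hL, hord r hr t])
  have hzc : ∀ z, π z = 1 → ∀ y, Commute z y := fun z hz y =>
    (Subgroup.mem_center_iff.1 (hc (MonoidHom.mem_ker.2 hz)) y).symm
  refine ⟨{
    φ := φ
    central := hc
    π_φ := hπφ
    add := ?_
    S := ∅
    cov := fun χ hχ => absurd hχ (Set.notMem_empty χ)
    act := fun χ hχ => absurd hχ (Set.notMem_empty χ)
    kill := ?_ }⟩
  · intro r hr t u
    have hcom : Commute (φ r t) (φ r u) := by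
      set a := φ r t
      set b := φ r u
      obtain ⟨c, hc'⟩ : ∃ c, a * b * a⁻¹ = c * b := ⟨a * b * a⁻¹ * b⁻¹, by group⟩
      have hπc : π c = 1 := by
        rw [show c = a * b * a⁻¹ * b⁻¹ by rw [hc']; group, map_mul, map_mul, map_mul, map_inv, map_inv,
          hπφ r hr t, hπφ r hr u, X.x_add r hr, add_comm, ← X.x_add r hr]
        group
      have hn : ∀ n : ℕ, a ^ n * b * (a ^ n)⁻¹ = c ^ n * b := by
        intro n
        induction n with
        | zero => simp
        | succ n ih =>
          calc a ^ (n + 1) * b * (a ^ (n + 1))⁻¹ = a * (a ^ n * b * (a ^ n)⁻¹) * a⁻¹ := by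
                rw [pow_succ']; group
            _ = c ^ n * (a * b * a⁻¹) := by
                rw [ih, ← mul_assoc a, ((hzc c hπc a).pow_left n).symm.eq]; group
            _ = _ := by rw [hc', pow_succ, mul_assoc]
      have h1 := hn p
      rw [hφp r hr t, one_mul, inv_one, mul_one, eq_comm, mul_eq_right] at h1
      rw [htor c (MonoidHom.mem_ker.2 hπc) h1, one_mul, mul_inv_eq_iff_eq_mul] at hc'
      exact hc'
    have hπp : π ((φ r (t + u))⁻¹ * (φ r t * φ r u)) = 1 := by
      rw [map_mul, map_inv, map_mul, hπφ r hr, hπφ r hr, hπφ r hr, X.x_add r hr, inv_mul_cancel]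
    have hz : ((φ r (t + u))⁻¹ * (φ r t * φ r u)) ^ p = 1 := by
      have hy : φ r (t + u) * ((φ r (t + u))⁻¹ * (φ r t * φ r u)) = φ r t * φ r u := mul_inv_cancel_left _ _
      have h2 := congrArg (· ^ p) hy
      simp only [((hzc _ hπp (φ r (t + u))).symm).mul_pow, hφp r hr, one_mul, hcom.mul_pow] at h2
      exact h2
    have := htor _ (MonoidHom.mem_ker.2 hπp) hz
    exact (inv_mul_eq_one.1 this).symm
  · intro r _ s _ _ _ f _ hf hadd _ _ t u
    have h0 : f 0 u = 1 := by
      have := hadd 0 0 u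
      rwa [add_zero, eq_comm, mul_eq_left] at this
    have hn : ∀ n : ℕ, f ((n : F) * t) u = f t u ^ n := by
      intro n
      induction n with
      | zero => simp [h0]
      | succ n ih => rw [pow_succ, ← ih, ← hadd]; congr 1; push_cast; ring
    refine htor _ (hf t u) ?_
    rw [← hn, CharP.cast_eq_zero F p, zero_mul, h0]

end Cfsg.Agent.Lib.SteinbergPres.Cover
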