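import Cfsg.Agent.Lib.SteinbergPres.Cover.Univ

/-!
Lifts of the root subgroups of fields with three or four elements.
-/

set_option autoImplicit false

namespace Cfsg.Agent.Lib.SteinbergPres.Cover

open Cfsg.Lie Cfsg.Agent.Lib.Chev

/-- image of a root and sign under a word of fundamental reflections -/
def actT (T : Fast) : List ℕ → ℕ → ℕ × Bool
  | [], s => (s, false)
  | i :: L, s => let p := actT T L s; (T.w i p.1, xor (T.en i p.1) p.2)

/-- `r` is a term, with unit coefficient, of two roots whose lifts centralize those of `r` in even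
characteristic -/
def selfEven (T : Fast) (r : ℕ) : Bool :=
  (List.range T.n).any fun a => (List.range T.n).any fun b =>
    !(Nat.beq a b) && !(Nat.beq b (T.ng a)) &&
      (a :: b :: ((T.commT a b).filter fun c => !(Nat.beq c.1 r)).map Prod.fst).all (fun q =>
        !(Nat.beq q r) && !(Nat.beq q (T.ng r)) && (T.commT q r).all fun c => Nat.beq (c.2.1.natAbs % 2) 0) &&
      match (T.commT a b).filter (fun c => Nat.beq c.1 r) with
        | [c] => Nat.beq c.2.1.natAbs 1 && Nat.beq c.2.2.1 1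
        | _ => false

/-- tables for the field with four elements -/
def check4 (T : Fast) : Bool :=
  allBelow T.n fun r => beqI (cpr T r r) 2 && selfEven T r &&
    allBelow T.n fun s => Nat.beq s r || Nat.beq s (T.ng r) ||
      (List.range T.n).any fun q => (List.range T.n).any fun q' =>
        !(Nat.beq ((cpr T q r * cpr T q' s - cpr T q s * cpr T q' r).natAbs % 3) 0)

/-- a word exchanging the two roots with equal signs -/
def swapOK (T : Fast) (r s : ℕ) (L : List ℕ) : Bool :=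
  L.all (fun i => decide (i < T.l)) && Nat.beq (actT T L r).1 s && Nat.beq (actT T L s).1 r &&
    ((actT T L r).2 == (actT T L s).2)

/-- tables for the field with three elements -/
def check3 (T : Fast) (cert : List (ℕ × ℕ × List ℕ)) : Bool :=
  allBelow T.n fun r => ((List.range T.n).any fun q => Nat.beq ((cpr T q r).natAbs % 2) 1) &&
    allBelow T.n fun s => Nat.beq s r || Nat.beq s (T.ng r) ||
      ((List.range T.n).any fun q => Nat.beq ((cpr T q r + cpr T q s).natAbs % 2) 1) ||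
      ((T.commT r s).isEmpty && cert.any fun c =>
        ((Nat.beq c.1 r && Nat.beq c.2.1 s) || (Nat.beq c.1 s && Nat.beq c.2.1 r)) &&
          swapOK T r s c.2.2)

variable {F : Type*} [Field F] {D : ChevalleyDatum} {T : Fast} {G : Type*} [Group G] {C : Checked D T}
  (X : StGen C F G) {E : Type*} [Group E] {π : E →* G} (hπ : Function.Surjective π)
  (hc : π.ker ≤ Subgroup.center E) (hperf : commutator G = ⊤) (hcc : coverCheck T = true)

theorem actT_spec (C : Checked D T) : ∀ (L : List ℕ), (∀ i ∈ L, i < D.rank) → ∀ s < D.nroots,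
    (actT T L s).1 = StGen.rwd D L s ∧ ((sgn (actT T L s).2 : ℤ) : F) = StGen.cw T F D L s
  | [], _, s, _ => by simp [actT, StGen.rwd, StGen.cw, sgn]
  | i :: L, hL, s, hs => by
    have hL' : ∀ j ∈ L, j < D.rank := fun j hj => hL j (by simp [hj])
    obtain ⟨h1, h2⟩ := actT_spec C L hL' s hs
    refine ⟨?_, ?_⟩
    · rw [StGen.rwd_cons, C.refl i (hL i (by simp)) _ (StGen.rwd_lt C L hL' hs), ← h1]
      rfl
    · rw [StGen.cw, ← h2, ← h1, eta, ← Int.cast_mul, ← sgn_xor]
      rfl

include hπ hc in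
/-- the commutator of lifts of two commuting root subgroups is biadditive and invariant -/
theorem exists_comm_form {r s : ℕ} (hr : r < D.nroots) (hs : s < D.nroots)
    (hG : ∀ t u, X.x r t * X.x s u = X.x s u * X.x r t) :
    ∃ f : F → F → E, (∀ t u, π (f t u) = 1) ∧ (∀ t t' u, f (t + t') u = f t u * f t' u) ∧
      (∀ t u u', f t (u + u') = f t u * f t u') ∧
      (∀ t u a b, π a = X.x r t → π b = X.x s u → a * b * a⁻¹ * b⁻¹ = f t u) ∧
      ∀ e t u a b, π a = π e * X.x r t * (π e)⁻¹ → π b = π e * X.x s u * (π e)⁻¹ →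
        a * b * a⁻¹ * b⁻¹ = f t u := by
  let L := Function.surjInv hπ
  have hL : ∀ g, π (L g) = g := Function.surjInv_eq hπ
  let f : F → F → E := fun t u => L (X.x r t) * L (X.x s u) * (L (X.x r t))⁻¹ * (L (X.x s u))⁻¹
  have hker : ∀ t u, π (f t u) = 1 := fun t u => by
    simp only [f, map_mul, map_inv, hL]
    rw [hG t u]; group
  have hz := fun t u y => (ker_commute hc (hker t u) y).eq
  have hval : ∀ t u a b, π a = X.x r t → π b = X.x s u → a * b * a⁻¹ * b⁻¹ = f t u := fun t u a b ha hb =>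
    comm_congr hc (by rw [ha, hL]) (by rw [hb, hL])
  refine ⟨f, hker, fun t t' u => ?_, fun t u u' => ?_, hval, fun e t u a b ha hb => ?_⟩
  · rw [← hval (t + t') u (L (X.x r t) * L (X.x r t')) (L (X.x s u))
      (by rw [map_mul, hL, hL, X.x_add r hr]) (hL _)]
    calc L (X.x r t) * L (X.x r t') * L (X.x s u) * (L (X.x r t) * L (X.x r t'))⁻¹ * (L (X.x s u))⁻¹
        = L (X.x r t) * (f t' u * L (X.x s u)) * (L (X.x r t))⁻¹ * (L (X.x s u))⁻¹ := by simp only [f]; group
      _ = L (X.x r t) * L (X.x s u) * (f t' u * ((L (X.x r t))⁻¹ * (L (X.x s u))⁻¹)) := by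
          rw [hz t' u (L (X.x s u))]; group
      _ = _ := by rw [hz]; simp only [f]; group
  · rw [← hval t (u + u') (L (X.x r t)) (L (X.x s u) * L (X.x s u')) (hL _)
      (by rw [map_mul, hL, hL, X.x_add s hs])]
    calc L (X.x r t) * (L (X.x s u) * L (X.x s u')) * (L (X.x r t))⁻¹ * (L (X.x s u) * L (X.x s u'))⁻¹
        = f t u * (L (X.x s u) * f t u' * (L (X.x s u))⁻¹) := by simp only [f]; group
      _ = _ := by rw [← hz]; simp only [f]; group
  · rw [comm_congr hc (a' := e * L (X.x r t) * e⁻¹) (b' := e * L (X.x s u) * e⁻¹)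
      (by rw [ha, map_mul, map_mul, map_inv, hL]) (by rw [hb, map_mul, map_mul, map_inv, hL])]
    calc _ = e * f t u * e⁻¹ := by simp only [f]; group
      _ = f t u := by rw [← hz]; group

include hπ hc hcc in
/-- killed forms give commuting lifts -/
theorem commute_of_kill {r s : ℕ} (hr : r < D.nroots) (hs : s < D.nroots)
    (hG : ∀ t u, X.x r t * X.x s u = X.x s u * X.x r t)
    (hk : ∀ f : F → F → E, (∀ t t' u, f (t + t') u = f t u * f t' u) →
      (∀ t u u', f t (u + u') = f t u * f t u') →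
      (∀ q < D.nroots, ∀ v : F, v ≠ 0 → ∀ t u, f (v ^ pair D q r * t) (v ^ pair D q s * u) = f t u) →
      ∀ t u, f t u = 1) {a b : E} {t u : F} (ha : π a = X.x r t) (hb : π b = X.x s u) : Commute a b := by
  obtain ⟨f, -, h1, h2, hval, hconj⟩ := exists_comm_form X hπ hc hr hs hG
  let L := Function.surjInv hπ
  have hL : ∀ g, π (L g) = g := Function.surjInv_eq hπ
  have h := hk f h1 h2 (fun q _ v hv t u => by
    rw [← hval _ _ (L (X.x r (v ^ pair D q r * t))) (L (X.x s (v ^ pair D q s * u))) (hL _) (hL _)]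
    exact hconj (L (X.tg q v)) t u _ _ (by rw [hL, hL, X.tg_conj hcc q hv hr t])
      (by rw [hL, hL, X.tg_conj hcc q hv hs u])) t u
  rw [← hval t u a b ha hb, mul_inv_eq_one, mul_inv_eq_iff_eq_mul] at h
  exact h

theorem natCast_form {f : F → F → E} (h1 : ∀ t t' u, f (t + t') u = f t u * f t' u)
    (h2 : ∀ t u u', f t (u + u') = f t u * f t u') (t u : F) (n m : ℕ) :
    f (n * t) (m * u) = f t u ^ (n * m) := by
  have z1 : ∀ u, f 0 u = 1 := fun u => by
    have := h1 0 0 u
    rwa [add_zero, eq_comm, mul_eq_left] at this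
  have z2 : ∀ t, f t 0 = 1 := fun t => by
    have := h2 t 0 0
    rwa [add_zero, eq_comm, mul_eq_left] at this
  have a1 : ∀ n u, f ((n : ℕ) * t) u = f t u ^ n := fun n u => by
    induction n with
    | zero => simp [z1]
    | succ n ih => rw [pow_succ, ← ih, ← h1]; congr 1; push_cast; ring
  have a2 : ∀ m : ℕ, f t (m * u) = f t u ^ m := fun m => by
    induction m with
    | zero => simp [z2]
    | succ m ih => rw [pow_succ, ← ih, ← h2]; congr 1; push_cast; ring
  rw [a1, a2, ← pow_mul, mul_comm m n]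

include hπ hc in
/-- over a prime field lifts of one root subgroup commute -/
theorem commute_self_prime (hprime : ∀ t : F, ∃ n : ℕ, (n : F) = t) {r : ℕ} (hr : r < D.nroots) {a b : E}
    {t u : F} (ha : π a = X.x r t) (hb : π b = X.x r u) : Commute a b := by
  obtain ⟨f, -, h1, h2, hval, -⟩ := exists_comm_form X hπ hc hr hr
    fun t u => by rw [X.x_add r hr, X.x_add r hr, add_comm]
  obtain ⟨n, rfl⟩ := hprime t
  obtain ⟨m, rfl⟩ := hprime u
  have h11 : f 1 1 = 1 := by
    obtain ⟨y, hy⟩ := hπ (X.x r 1)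
    rw [← hval 1 1 y y hy hy]; group
  have h := natCast_form h1 h2 1 1 n m
  rw [mul_one, mul_one, h11, one_pow, ← hval _ _ a b ha hb, mul_inv_eq_one, mul_inv_eq_iff_eq_mul] at h
  exact h

include hπ hc hcc in
/-- over the field with three elements orthogonal root subgroups exchanged by a word with equal signs -/
theorem commute_of_swap (hprime : ∀ t : F, ∃ n : ℕ, (n : F) = t) (h3 : (3 : F) = 0) {r s : ℕ}
    (hr : r < D.nroots) (hs : s < D.nroots) (hG : ∀ t u, X.x r t * X.x s u = X.x s u * X.x r t)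
    {L : List ℕ} (hsw : swapOK T r s L = true) {a b : E} {t u : F} (ha : π a = X.x r t) (hb : π b = X.x s u) :
    Commute a b := by
  simp only [swapOK, Bool.and_eq_true, List.all_eq_true, decide_eq_true_eq] at hsw
  obtain ⟨⟨⟨hL, hLr⟩, hLs⟩, hsgn⟩ := hsw
  rw [← C.tables.rank] at hL
  obtain ⟨er, cr⟩ := actT_spec (F := F) C L hL r hr
  obtain ⟨es, cs⟩ := actT_spec (F := F) C L hL s hs
  rw [Nat.eq_of_beq_eq_true hLr] at er
  rw [Nat.eq_of_beq_eq_true hLs] at es
  rw [eq_of_beq hsgn, cs] at cr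
  obtain ⟨f, -, h1, h2, hval, hconj⟩ := exists_comm_form X hπ hc hr hs hG
  set c := StGen.cw T F D L r with hcdef
  obtain ⟨e, he⟩ := hπ (X.nw L)
  obtain ⟨ya, hya⟩ := hπ (X.x s (c * 1))
  obtain ⟨yb, hyb⟩ := hπ (X.x r (c * 1))
  have hA : ya * yb * ya⁻¹ * yb⁻¹ = f 1 1 := hconj e 1 1 ya yb
    (by rw [hya, he, X.nw_conj hcc L hL r hr, ← er]) (by rw [hyb, he, X.nw_conj hcc L hL s hs, ← es, ← cr])
  have hB : yb * ya * yb⁻¹ * ya⁻¹ = f (c * 1) (c * 1) := hval _ _ yb ya hyb hya
  have hinv : f (c * 1) (c * 1) * f 1 1 = 1 := by rw [← hA, ← hB]; group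
  have hcc1 : f (c * 1) (c * 1) = f 1 1 := by
    obtain ⟨n, hn⟩ := hprime c
    have hsq : c * c = 1 := StGen.cw_sq L r
    have e3 : f 1 1 ^ 3 = 1 := by
      have h := natCast_form h1 h2 1 1 3 1
      rw [Nat.mul_one, Nat.cast_ofNat, h3, zero_mul] at h
      rw [← h]
      have := h1 0 0 ((1 : ℕ) * (1 : F))
      rwa [add_zero, eq_comm, mul_eq_left] at this
    rw [← hn, natCast_form h1 h2]
    have hmod : (n * n) % 3 = 1 := by
      have h' : ((n * n % 3 : ℕ) : F) = 1 := by
        rw [← hsq, ← hn, ← Nat.cast_mul]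
        conv_rhs => rw [← Nat.mod_add_div (n * n) 3]
        simp [h3]
      have : n * n % 3 < 3 := Nat.mod_lt _ (by norm_num)
      interval_cases hh : n * n % 3
      · simp at h'
      · rfl
      · exfalso
        have : (2 : F) = 1 := by simpa using h'
        exact one_ne_zero (by linear_combination this)
    rw [← Nat.mod_add_div (n * n) 3, hmod, pow_add, pow_mul, e3, one_pow, pow_one, mul_one]
  have h11 : f 1 1 = 1 := by
    rw [hcc1] at hinv
    have e3 : f 1 1 ^ 3 = 1 := by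
      have h := natCast_form h1 h2 1 1 3 1
      rw [Nat.mul_one, Nat.cast_ofNat, h3, zero_mul] at h
      rw [← h]
      have := h1 0 0 ((1 : ℕ) * (1 : F))
      rwa [add_zero, eq_comm, mul_eq_left] at this
    calc f 1 1 = f 1 1 ^ 3 * (f 1 1 * f 1 1)⁻¹ := by group
      _ = 1 := by rw [e3, hinv]; group
  obtain ⟨n, rfl⟩ := hprime t
  obtain ⟨m, rfl⟩ := hprime u
  have h := natCast_form h1 h2 1 1 n m
  rw [mul_one, mul_one, h11, one_pow, ← hval _ _ a b ha hb, mul_inv_eq_one, mul_inv_eq_iff_eq_mul] at h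
  exact h

include hπ hc in
/-- lifts of a root subgroup commute if it is a term of roots whose lifts centralize it -/
theorem commute_self_even (h2 : (2 : F) = 0)
    (hne : ∀ r s, r < D.nroots → s < D.nroots → s ≠ r → s ≠ D.neg r →
      (∀ t u, X.x r t * X.x s u = X.x s u * X.x r t) →
      ∀ a b t u, π a = X.x r t → π b = X.x s u → Commute a b)
    {s : ℕ} (hs : s < D.nroots) (hself : selfEven T s = true) {a₀ b₀ : E} {t u : F}
    (ha₀ : π a₀ = X.x s t) (hb₀ : π b₀ = X.x s u) : Commute a₀ b₀ := by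
  let L := Function.surjInv hπ
  have hL : ∀ g, π (L g) = g := Function.surjInv_eq hπ
  simp only [selfEven, List.any_eq_true, List.mem_range, Bool.and_eq_true] at hself
  obtain ⟨a, ha', b, hb', ⟨⟨⟨hab, hban⟩, hall⟩, hterm⟩⟩ := hself
  rw [← C.tables.nroots] at ha' hb'
  have hbne : ∀ {x y : ℕ}, (!Nat.beq x y) = true → x ≠ y := fun h e => by
    rw [e] at h; simp [Nat.beq_refl] at h
  rw [C.commT_eq ha' hb'] at hterm hall
  rcases hf : (D.commTerms a b).filter (fun c => Nat.beq c.1 s) with _ | ⟨c0, _ | ⟨c1, tl⟩⟩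
  · rw [hf] at hterm; simp at hterm
  swap
  · rw [hf] at hterm; simp at hterm
  rw [hf] at hterm
  simp only [Bool.and_eq_true] at hterm
  obtain ⟨hc2, hc3⟩ := hterm
  have hmem : c0 ∈ D.commTerms a b :=
    List.mem_of_mem_filter (p := fun c => Nat.beq c.1 s) (by rw [hf]; simp)
  have hc1 : c0.1 = s := Nat.eq_of_beq_eq_true
    ((List.mem_filter.1 (show c0 ∈ (D.commTerms a b).filter fun c => Nat.beq c.1 s by rw [hf]; simp)).2)
  obtain ⟨A, B, hAB⟩ := List.append_of_mem hmem
  have hAB' : A.filter (fun c => Nat.beq c.1 s) = [] ∧ B.filter (fun c => Nat.beq c.1 s) = [] := by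
    have hh := hf
    rw [hAB, List.filter_append, List.filter_cons, if_pos (by rw [hc1]; exact Nat.beq_refl s)] at hh
    have := congrArg List.length hh
    simp at this
    exact ⟨List.eq_nil_of_length_eq_zero (by omega), List.eq_nil_of_length_eq_zero (by omega)⟩
  simp only [List.all_eq_true, List.mem_cons, Bool.and_eq_true] at hall
  have hq : ∀ q, q < D.nroots → (q = a ∨ q = b ∨ q ∈ ((D.commTerms a b).filter
      fun c => !(Nat.beq c.1 s)).map Prod.fst) → ∀ w (y : E) (v : F), π y = X.x q v → π w = X.x s u →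
      Commute y w := by
    intro q hqlt hqm w y v hy hw
    obtain ⟨⟨n1, n2⟩, n3⟩ := hall q hqm
    rw [← C.tables.neg s hs] at n2
    have hneg' : s ≠ D.neg q := fun e => hbne n2 (by rw [e, C.root.neg_neg' hqlt])
    refine hne q s hqlt hs (Ne.symm (hbne n1)) hneg' (fun v u => ?_) y w v u hy hw
    rw [X.x_comm q hqlt s hs (Ne.symm (hbne n1)) hneg' v u]
    rw [C.commT_eq hqlt hs] at n3
    have hwd : wdOf X.x (D.commWord F q s v u) = 1 := by
      refine List.prod_eq_one fun g hg => ?_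
      simp only [ChevalleyDatum.commWord, List.map_map, List.mem_map, Function.comp_apply] at hg
      obtain ⟨c, hc, rfl⟩ := hg
      have hev : Nat.beq (c.2.1.natAbs % 2) 0 = true := n3 c hc
      have h0 : ((c.2.1 : ℤ) : F) = 0 := by
        obtain ⟨k, hk⟩ : (2 : ℤ) ∣ c.2.1 := by
          have := Nat.eq_of_beq_eq_true hev
          omega
        rw [hk, Int.cast_mul, Int.cast_ofNat, h2, zero_mul]
      simp only [h0, zero_mul]
      exact X.x_zero (C.commTerms_lt hqlt hs c hc)
    rw [hwd, mul_one]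
  have hcoef : (c0.2.1 : F) * (c0.2.1 : F) = 1 := by
    rcases Int.natAbs_eq_iff.1 (Nat.eq_of_beq_eq_true hc2) with h | h <;> simp [h]
  set t' : F := -((c0.2.1 : F) * t) with ht'
  let g : ℕ × ℤ × ℕ × ℕ → ℕ × F := fun q => (q.1, (q.2.1 : F) * (-t') ^ q.2.2.1 * (1 : F) ^ q.2.2.2)
  have hg0 : g c0 = (s, t) := by
    refine Prod.ext hc1 ?_
    simp only [g, ht', Nat.eq_of_beq_eq_true hc3, one_pow, mul_one, pow_one, neg_neg, ← mul_assoc, hcoef,
      one_mul]
  have hside : ∀ q ∈ A ++ B, q.1 < D.nroots ∧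
      (q.1 = a ∨ q.1 = b ∨ q.1 ∈ ((D.commTerms a b).filter fun c => !(Nat.beq c.1 s)).map Prod.fst) := by
    intro q hq
    have hin : q ∈ D.commTerms a b := by
      rw [hAB]; rcases List.mem_append.1 hq with h | h <;> simp [h]
    refine ⟨C.commTerms_lt ha' hb' q hin, Or.inr (Or.inr (List.mem_map.2 ⟨q, List.mem_filter.2 ⟨hin, ?_⟩, rfl⟩))⟩
    rcases List.mem_append.1 hq with h | h
    · by_contra h'
      have : q ∈ A.filter (fun c => Nat.beq c.1 s) := List.mem_filter.2 ⟨h, by simpa using h'⟩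
      rw [hAB'.1] at this; simp at this
    · by_contra h'
      have : q ∈ B.filter (fun c => Nat.beq c.1 s) := List.mem_filter.2 ⟨h, by simpa using h'⟩
      rw [hAB'.2] at this; simp at this
  set w := L (X.x s u) with hw
  have hwd : ∀ l : List (ℕ × ℤ × ℕ × ℕ), (∀ q ∈ l, q ∈ A ++ B) →
      ∃ y, π y = X.wd (l.map g) ∧ Commute y w := by
    intro l
    induction l with
    | nil => exact fun _ => ⟨1, by simp [StGen.wd, wdOf], Commute.one_left _⟩
    | cons q l ih =>
      intro hl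
      obtain ⟨y, hy, hyw⟩ := ih fun p hp => hl p (by simp [hp])
      obtain ⟨q1, q2⟩ := hside q (hl q (by simp))
      refine ⟨L (X.x q.1 (g q).2) * y, ?_, (hq q.1 q1 q2 w _ _ (hL _) (hL _)).mul_left hyw⟩
      rw [map_mul, hL, hy, List.map_cons, StGen.wd_cons]
  obtain ⟨yA, hyA, hyA'⟩ := hwd A fun q hq => List.mem_append_left _ hq
  obtain ⟨yB, hyB, hyB'⟩ := hwd B fun q hq => List.mem_append_right _ hq
  have hxa := hq a ha' (Or.inl rfl) w _ t' (hL _) (hL _)
  have hxb := hq b hb' (Or.inr (Or.inl rfl)) w _ 1 (hL _) (hL _)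
  set xa := L (X.x a t')
  set xb := L (X.x b 1)
  have hbn : b ≠ D.neg a := by rw [C.tables.neg a ha']; exact hbne hban
  have hrel : X.x s t = (X.wd (A.map g))⁻¹ * (X.x b 1)⁻¹ * (X.x a t')⁻¹ * X.x b 1 * X.x a t' *
      (X.wd (B.map g))⁻¹ := by
    have h0 := X.x_comm a ha' b hb' (Ne.symm (hbne hab)) hbn t' 1
    have hword : D.commWord F a b t' 1 = A.map g ++ (s, t) :: B.map g := by
      rw [← hg0, ← List.map_cons, ← List.map_append, ← hAB]
      rfl
    rw [hword, show wdOf X.x (A.map g ++ (s, t) :: B.map g) = _ from X.wd_append _ _, X.wd_cons] at h0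
    rw [mul_assoc _ (X.x b 1) (X.x a t'), h0]
    group
  set y := yA⁻¹ * xb⁻¹ * xa⁻¹ * xb * xa * yB⁻¹ with hy
  have hyπ : π y = X.x s t := by
    simp only [hy, xa, xb, map_mul, map_inv, hL, hyA, hyB, ← hrel]
  have hyw : Commute y w :=
    ((((hyA'.inv_left.mul_left hxb.inv_left).mul_left hxa.inv_left).mul_left hxb).mul_left hxa).mul_left
      hyB'.inv_left
  obtain ⟨z, hz, rfl⟩ : ∃ z, π z = 1 ∧ a₀ = y * z := ⟨y⁻¹ * a₀, by simp [hyπ, ha₀], by group⟩
  obtain ⟨z', hz', rfl⟩ : ∃ z', π z' = 1 ∧ b₀ = w * z' := ⟨w⁻¹ * b₀, by simp [hw, hL, hb₀], by group⟩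
  exact (hyw.mul_left (ker_commute hc hz w)).mul_right ((ker_commute hc hz' (y * z)).symm)

include hπ hc hperf hcc in
/-- lifts from commuting lifts and killed dependent pairs -/
theorem exists_lift_of (hv : ∀ r < D.nroots, ∃ q < D.nroots, ∃ v : F, v ≠ 0 ∧ v ^ pair D q r ≠ 1)
    (hcom : ∀ r s, r < D.nroots → s < D.nroots → s ≠ D.neg r →
      (∀ t u, X.x r t * X.x s u = X.x s u * X.x r t) →
      ∀ a b t u, π a = X.x r t → π b = X.x s u → Commute a b)
    (hdep : ∀ r < D.nroots, ∀ s < D.nroots, s ≠ r → s ≠ D.neg r → D.commTerms r s ≠ [] → ∀ f : F → F → E,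
      (∀ t t' u, f (t + t') u = f t u * f t' u) → (∀ t u u', f t (u + u') = f t u * f t u') →
      (∀ q < D.nroots, ∀ v : F, v ≠ 0 → ∀ t u, f (v ^ pair D q r * t) (v ^ pair D q s * u) = f t u) →
      ∀ t u, f t u = 1) : Nonempty (Lift X π) := by
  classical
  choose qq hqq vv hvv0 hvv using hv
  let q : ℕ → ℕ := fun r => if h : r < D.nroots then qq r h else 0
  let v : ℕ → F := fun r => if h : r < D.nroots then vv r h else 1
  let d : ℕ → F := fun r => v r ^ pair D (q r) r - 1
  have hv0 : ∀ r < D.nroots, v r ≠ 0 := fun r hr => by simp only [v, dif_pos hr]; exact hvv0 r hr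
  have hd0 : ∀ r < D.nroots, d r ≠ 0 := fun r hr => by
    simp only [d, v, q, dif_pos hr]; exact sub_ne_zero.2 (hvv r hr)
  let L := Function.surjInv hπ
  have hL : ∀ g, π (L g) = g := Function.surjInv_eq hπ
  let φ : ℕ → F → E := fun r t => L (X.tg (q r) (v r)) * L (X.x r (t / d r)) *
    (L (X.tg (q r) (v r)))⁻¹ * (L (X.x r (t / d r)))⁻¹
  have hπφ : ∀ r < D.nroots, ∀ t, π (φ r t) = X.x r t := by
    intro r hr t
    simp only [φ, map_mul, map_inv, hL]
    rw [X.tg_conj hcc (q r) (hv0 r hr) hr, X.x_inv hr, X.x_add r hr]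
    congr 1
    rw [← sub_eq_add_neg, ← sub_one_mul, mul_div_cancel₀ _ (hd0 r hr)]
  refine ⟨{
    φ := φ
    central := hc
    π_φ := hπφ
    add := ?_
    S := {χ | ∃ q < D.nroots, ∃ a : F, a ≠ 0 ∧ χ = fun r => a ^ pair D q r}
    cov := ?_
    act := ?_
    kill := ?_ }⟩
  · intro r hr t u
    set g := L (X.tg (q r) (v r))
    have hcm : Commute (L (X.x r (t / d r))) (φ r u) :=
      hcom r r hr hr (Ne.symm (C.root.neg_ne hr)) (fun t u => by rw [X.x_add r hr, X.x_add r hr, add_comm])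
        _ _ _ _ (hL _) (hπφ r hr u)
    symm
    show g * L (X.x r ((t + u) / d r)) * g⁻¹ * (L (X.x r ((t + u) / d r)))⁻¹ = φ r t * φ r u
    rw [comm_congr hc (rfl : π g = π g) (b' := L (X.x r (t / d r)) * L (X.x r (u / d r)))
      (by rw [map_mul, hL, hL, hL, X.x_add r hr, add_div])]
    calc g * (L (X.x r (t / d r)) * L (X.x r (u / d r))) * g⁻¹ * (L (X.x r (t / d r)) * L (X.x r (u / d r)))⁻¹
        = φ r t * (L (X.x r (t / d r)) * φ r u * (L (X.x r (t / d r)))⁻¹) := by simp only [φ, g]; group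
      _ = _ := by rw [hcm.eq]; group
  · rintro χ ⟨q', hq', a, ha, rfl⟩ r hr s hs t u
    exact commWord_chr C (C.isChr_pair q' ha) hr hs t u
  · rintro χ ⟨q', hq', a, ha, rfl⟩
    refine ⟨L (X.tg q' a), fun r hr t => ?_⟩
    set e := L (X.tg q' a)
    set g := L (X.tg (q r) (v r))
    set y := L (X.x r (t / d r)) with hy
    obtain ⟨c, hcdef⟩ : ∃ c, e * g * e⁻¹ = c * g := ⟨e * g * e⁻¹ * g⁻¹, by group⟩
    have hcy : c ∈ Subgroup.center E := by
      refine central_lift hπ hc hperf ?_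
      rw [show c = e * g * e⁻¹ * g⁻¹ by rw [hcdef]; group, map_mul, map_mul, map_mul, map_inv, map_inv, hL,
        hL]
      exact X.H_comm_center hcc (X.tg_mem_H q' ha) (X.tg_mem_H (q r) (hv0 r hr))
    have hey : π (e * y * e⁻¹) = π (L (X.x r ((a ^ pair D q' r * t) / d r))) := by
      rw [map_mul, map_mul, map_inv, hL, hL, hL, X.tg_conj hcc q' ha hr, mul_div_assoc]
    calc e * φ r t * e⁻¹ = (e * g * e⁻¹) * (e * y * e⁻¹) * (e * g * e⁻¹)⁻¹ * (e * y * e⁻¹)⁻¹ := by
          simp only [φ, g, hy]; group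
      _ = g * (e * y * e⁻¹) * g⁻¹ * (e * y * e⁻¹)⁻¹ := by
          rw [hcdef]
          calc c * g * (e * y * e⁻¹) * (c * g)⁻¹ * (e * y * e⁻¹)⁻¹
              = c * (g * (e * y * e⁻¹) * g⁻¹) * c⁻¹ * (e * y * e⁻¹)⁻¹ := by group
            _ = _ := by rw [← Subgroup.mem_center_iff.1 hcy]; group
      _ = φ r (a ^ pair D q' r * t) := comm_congr hc rfl hey
  · intro r hr s hs h1 h2 f hdef _ hf1 hf2 hinv t u
    by_cases hct : D.commTerms r s = []
    · have hG : ∀ t u, X.x r t * X.x s u = X.x s u * X.x r t := fun t u => by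
        rw [X.x_comm r hr s hs h1 h2, ChevalleyDatum.commWord, hct]; simp [wdOf]
      rw [hdef t u, ChevalleyDatum.commWord, hct, List.map_nil, wdOf, List.map_nil, List.prod_nil, mul_one,
        (hcom r s hr hs h2 hG _ _ t u (hπφ r hr t) (hπφ s hs u)).eq, inv_mul_cancel]
    · exact hdep r hr s hs h1 h2 hct f hf1 hf2 (fun q hq w hw => hinv _ ⟨q, hq, w, hw, rfl⟩) t u

include hπ hc hperf hcc in
theorem exists_lift_four [Fintype F] (hF : Fintype.card F = 4) (h4 : check4 T = true) :
    Nonempty (Lift X π) := by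
  classical
  have hb : ∀ r < T.n, (beqI (cpr T r r) 2 = true ∧ selfEven T r = true) ∧ ∀ s < T.n,
      (Nat.beq s r = true ∨ Nat.beq s (T.ng r) = true) ∨ ∃ q < T.n, ∃ q' < T.n,
        (!(Nat.beq ((cpr T q r * cpr T q' s - cpr T q s * cpr T q' r).natAbs % 3) 0)) = true := by
    simpa only [check4, allBelow_iff, Bool.and_eq_true, Bool.or_eq_true, List.any_eq_true, List.mem_range]
      using h4
  obtain ⟨v, hv0, hv1⟩ : ∃ v : F, v ≠ 0 ∧ v ≠ 1 := by
    by_contra h
    push Not at h
    have hsub : (Finset.univ : Finset F) ⊆ {0, 1} := fun x _ => by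
      by_cases hx : x = 0
      · simp [hx]
      · simp [h x hx]
    have := (Finset.card_le_card hsub).trans Finset.card_le_two
    rw [Finset.card_univ, hF] at this
    omega
  have hv3 : v ^ (3 : ℤ) = 1 := by
    have := FiniteField.pow_card_sub_one_eq_one v hv0
    rw [hF] at this
    exact_mod_cast this
  have h2 : (2 : F) = 0 := by
    have h := Nat.cast_card_eq_zero F
    rw [hF] at h
    have : (2 : F) * 2 = 0 := by rw [← h]; norm_num
    exact (mul_self_eq_zero.1 this)
  have hpow : ∀ k : ℤ, k.natAbs % 3 ≠ 0 → v ^ k ≠ 1 := by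
    intro k hk he
    have hmod : v ^ (k % 3) = 1 := by
      have : v ^ k = v ^ (k % 3) := by
        conv_lhs => rw [← Int.emod_add_mul_ediv k 3, zpow_add₀ hv0, zpow_mul, hv3, one_zpow, mul_one]
      rw [← this, he]
    have h1 : k % 3 = 1 ∨ k % 3 = 2 := by omega
    rcases h1 with e | e <;> rw [e] at hmod
    · exact hv1 (by simpa using hmod)
    · have : v ^ (3 : ℤ) = v ^ (2 : ℤ) * v := by rw [show (3 : ℤ) = 2 + 1 from rfl, zpow_add₀ hv0, zpow_one]
      rw [hv3, hmod, one_mul] at this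
      exact hv1 this.symm
  have hkill : ∀ r < D.nroots, ∀ s < D.nroots, s ≠ r → s ≠ D.neg r → ∀ f : F → F → E,
      (∀ t t' u, f (t + t') u = f t u * f t' u) →
      (∀ q < D.nroots, ∀ w : F, w ≠ 0 → ∀ t u, f (w ^ pair D q r * t) (w ^ pair D q s * u) = f t u) →
      ∀ t u, f t u = 1 := by
    intro r hr s hs n1 n2 f h1 hinv
    obtain ⟨q, hq, q', hq', hdet⟩ := ((hb r (C.tables.nroots ▸ hr)).2 s (C.tables.nroots ▸ hs)).resolve_left
      fun h => by
        rcases h with h | h
        · exact n1 (Nat.eq_of_beq_eq_true h)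
        · exact n2 (by rw [C.tables.neg r hr]; exact Nat.eq_of_beq_eq_true h)
    rw [← C.tables.nroots] at hq hq'
    rw [cpr_eq C hq hr, cpr_eq C hq hs, cpr_eq C hq' hr, cpr_eq C hq' hs] at hdet
    refine kill_pair h1 (hpow _ fun e => by rw [e] at hdet; simp [Nat.beq_refl] at hdet) fun t u => ?_
    have e1 := hinv q hq (v ^ pair D q' s) (zpow_ne_zero _ hv0)
      ((v ^ (-pair D q s)) ^ pair D q' r * t) ((v ^ (-pair D q s)) ^ pair D q' s * u)
    rw [hinv q' hq' (v ^ (-pair D q s)) (zpow_ne_zero _ hv0)] at e1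
    refine Eq.trans ?_ e1
    congr 1
    · rw [← mul_assoc, ← zpow_mul, ← zpow_mul, ← zpow_add₀ hv0]; congr 2; ring
    · rw [← mul_assoc, ← zpow_mul, ← zpow_mul, ← zpow_add₀ hv0,
        show pair D q' s * pair D q s + -pair D q s * pair D q' s = 0 by ring, zpow_zero, one_mul]
  have hne : ∀ r s, r < D.nroots → s < D.nroots → s ≠ r → s ≠ D.neg r →
      (∀ t u, X.x r t * X.x s u = X.x s u * X.x r t) →
      ∀ a b t u, π a = X.x r t → π b = X.x s u → Commute a b := fun r s hr hs n1 n2 hG a b t u ha hb =>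
    commute_of_kill X hπ hc hcc hr hs hG (fun f h1 _ hinv => hkill r hr s hs n1 n2 f h1 hinv) ha hb
  refine exists_lift_of X hπ hc hperf hcc (fun r hr => ⟨r, hr, v, hv0, ?_⟩) (fun r s hr hs n2 hG a b t u ha hb' => ?_)
    fun r hr s hs n1 n2 _ f h1 _ hinv => hkill r hr s hs n1 n2 f h1 hinv
  · refine hpow _ ?_
    rw [← cpr_eq C hr hr, beqI_eq (hb r (C.tables.nroots ▸ hr)).1.1]
    decide
  · by_cases n1 : s = r
    · subst n1
      exact commute_self_even X hπ hc h2 hne hs (hb s (C.tables.nroots ▸ hs)).1.2 ha hb'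
    · exact hne r s hr hs n1 n2 hG a b t u ha hb'

include hπ hc hperf hcc in
theorem exists_lift_three [Fintype F] (hF : Fintype.card F = 3) {cert : List (ℕ × ℕ × List ℕ)}
    (h3c : check3 T cert = true) : Nonempty (Lift X π) := by
  classical
  have hb : ∀ r < T.n, (∃ q < T.n, Nat.beq ((cpr T q r).natAbs % 2) 1 = true) ∧ ∀ s < T.n,
      (((Nat.beq s r = true ∨ Nat.beq s (T.ng r) = true) ∨
        ∃ q < T.n, Nat.beq ((cpr T q r + cpr T q s).natAbs % 2) 1 = true) ∨
      (T.commT r s).isEmpty = true ∧ ∃ c ∈ cert, ((Nat.beq c.1 r = true ∧ Nat.beq c.2.1 s = true) ∨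
          (Nat.beq c.1 s = true ∧ Nat.beq c.2.1 r = true)) ∧ swapOK T r s c.2.2 = true) := by
    simpa only [check3, allBelow_iff, Bool.and_eq_true, Bool.or_eq_true, List.any_eq_true, List.mem_range]
      using h3c
  have h3 : (3 : F) = 0 := by
    have h := Nat.cast_card_eq_zero F
    rwa [hF, Nat.cast_ofNat] at h
  have hm1 : (-1 : F) ≠ 1 := fun h => one_ne_zero (α := F) (by linear_combination h3 + h)
  have hprime : ∀ t : F, ∃ n : ℕ, (n : F) = t := by
    intro t
    have h01 : ({0, 1, -1} : Finset F) = Finset.univ := Finset.eq_univ_of_card _ (by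
      rw [hF, Finset.card_insert_of_notMem (by simp), Finset.card_pair (Ne.symm hm1)])
    have ht : t ∈ ({0, 1, -1} : Finset F) := by rw [h01]; exact Finset.mem_univ t
    simp only [Finset.mem_insert, Finset.mem_singleton] at ht
    rcases ht with rfl | rfl | rfl
    · exact ⟨0, Nat.cast_zero⟩
    · exact ⟨1, Nat.cast_one⟩
    · exact ⟨2, by push_cast; linear_combination h3⟩
  have hodd : ∀ k : ℤ, k.natAbs % 2 = 1 → (-1 : F) ^ k = -1 := fun k hk => by
    obtain ⟨j, hj⟩ : ∃ j : ℤ, k = 2 * j + 1 := ⟨k / 2, by omega⟩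
    rw [hj, zpow_add₀ (neg_ne_zero.2 one_ne_zero), zpow_mul, zpow_one]
    norm_num
  have hkill : ∀ r s, ∀ q < D.nroots, (pair D q r + pair D q s).natAbs % 2 = 1 →
      ∀ f : F → F → E, (∀ t t' u, f (t + t') u = f t u * f t' u) → (∀ t u u', f t (u + u') = f t u * f t u') →
      (∀ q < D.nroots, ∀ w : F, w ≠ 0 → ∀ t u, f (w ^ pair D q r * t) (w ^ pair D q s * u) = f t u) →
      ∀ t u, f t u = 1 := by
    intro r s q hq hpar f h1 h2 hinv
    refine kill_pair h1 hm1 fun t u => ?_
    have e := hinv q hq (-1) (neg_ne_zero.2 one_ne_zero) t u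
    rcases (by omega : (pair D q r).natAbs % 2 = 1 ∧ (pair D q s).natAbs % 2 = 0 ∨
      (pair D q r).natAbs % 2 = 0 ∧ (pair D q s).natAbs % 2 = 1) with ⟨o, ev⟩ | ⟨ev, o⟩
    all_goals
      obtain ⟨j, hj⟩ : ∃ j : ℤ, _ = 2 * j := Int.dvd_natAbs.1 (by
        exact_mod_cast Nat.dvd_of_mod_eq_zero ev : ((2 : ℕ) : ℤ) ∣ _)
      rw [hj, zpow_mul, hodd _ o] at e
      norm_num at e
    · simpa using e
    · have zt : f (-1 * t) u = f t (-1 * u) := by
        have z1 : f 0 u = 1 := by
          have := h1 0 0 u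
          rwa [add_zero, eq_comm, mul_eq_left] at this
        have z2 : f t 0 = 1 := by
          have := h2 t 0 0
          rwa [add_zero, eq_comm, mul_eq_left] at this
        have p1 := h1 (-1 * t) t u
        rw [show -1 * t + t = 0 by ring, z1] at p1
        have p2 := h2 t (-1 * u) u
        rw [show -1 * u + u = 0 by ring, z2, p1] at p2
        exact mul_right_cancel p2
      rw [zt]
      simpa using e
  refine exists_lift_of X hπ hc hperf hcc (fun r hr => ?_) (fun r s hr hs n2 hG a b t u ha hb' => ?_) ?_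
  · obtain ⟨q, hq, ho⟩ := (hb r (C.tables.nroots ▸ hr)).1
    rw [← C.tables.nroots] at hq
    rw [cpr_eq C hq hr] at ho
    exact ⟨q, hq, -1, neg_ne_zero.2 one_ne_zero, by rw [hodd _ (Nat.eq_of_beq_eq_true ho)]; exact hm1⟩
  · by_cases n1 : s = r
    · subst n1
      exact commute_self_prime X hπ hc hprime hs ha hb'
    · rcases (hb r (C.tables.nroots ▸ hr)).2 s (C.tables.nroots ▸ hs) with (h | ⟨q, hq, hpar⟩) | ⟨-, c, -, -, hsw⟩
      · exfalso
        rcases h with h | h
        · exact n1 (Nat.eq_of_beq_eq_true h)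
        · exact n2 (by rw [C.tables.neg r hr]; exact Nat.eq_of_beq_eq_true h)
      · rw [← C.tables.nroots] at hq
        rw [cpr_eq C hq hr, cpr_eq C hq hs] at hpar
        exact commute_of_kill X hπ hc hcc hr hs hG (hkill r s q hq (Nat.eq_of_beq_eq_true hpar)) ha hb'
      · exact commute_of_swap X hπ hc hcc hprime h3 hr hs hG hsw ha hb'
  · intro r hr s hs n1 n2 hct f h1 h2 hinv
    rcases (hb r (C.tables.nroots ▸ hr)).2 s (C.tables.nroots ▸ hs) with (h | ⟨q, hq, hpar⟩) | ⟨he, -⟩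
    · exfalso
      rcases h with h | h
      · exact n1 (Nat.eq_of_beq_eq_true h)
      · exact n2 (by rw [C.tables.neg r hr]; exact Nat.eq_of_beq_eq_true h)
    · rw [← C.tables.nroots] at hq
      rw [cpr_eq C hq hr, cpr_eq C hq hs] at hpar
      exact hkill r s q hq (Nat.eq_of_beq_eq_true hpar) f h1 h2 hinv
    · rw [C.commT_eq hr hs, List.isEmpty_iff] at he
      exact absurd he hct

end Cfsg.Agent.Lib.SteinbergPres.Cover
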