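import Cfsg.Agent.Lib.SteinbergPres.Cover.Small
import Cfsg.Agent.Lib.Chev.All

/-!
Lifts for type B₂ over the field with three elements: the long root subgroups are lifted by commutators of
short ones.
-/

set_option autoImplicit false

namespace Cfsg.Agent.Lib.SteinbergPres.Cover

open Cfsg.Lie Cfsg.Agent.Lib.Chev

/-- exact form of a single commutator term -/
def oneTerm (T : Fast) (r s z : ℕ) (c : ℤ) : Bool :=
  match T.commT r s with
    | [p] => Nat.beq p.1 z && beqI p.2.1 c && Nat.beq p.2.2.1 1 && Nat.beq p.2.2.2 1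
    | _ => false

/-- `q` has odd pairing with the sum -/
def oddSum (T : Fast) (r s : ℕ) : Bool :=
  (List.range T.n).any fun q => Nat.beq ((cpr T q r + cpr T q s).natAbs % 2) 1

/-- some `q` has odd pairing -/
def oddOne (T : Fast) (r : ℕ) : Bool := (List.range T.n).any fun q => Nat.beq ((cpr T q r).natAbs % 2) 1

/-- tables with chosen pairs `(z, a, b, c)` for roots with even pairings -/
def check3B (T : Fast) (ps : List (ℕ × ℕ × ℕ × ℤ)) (cert : List (ℕ × ℕ × List ℕ)) : Bool :=
  allBelow T.n fun r =>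
    (oddOne T r || match ps.find? (fun p => Nat.beq p.1 r) with
      | some (z, a, b, c) => decide (a < T.n) && decide (b < T.n) && !(Nat.beq a b) && !(Nat.beq b (T.ng a)) &&
          oneTerm T a b z c && beqI (c * c) 4 && oddOne T a && oddOne T b &&
          !(Nat.beq a r) && !(Nat.beq b r) && !(Nat.beq a (T.ng r)) && !(Nat.beq b (T.ng r)) &&
          oddSum T r a && oddSum T r b && (T.commT r a).isEmpty && (T.commT r b).isEmpty
      | none => false) &&
    allBelow T.n fun s => Nat.beq s r || Nat.beq s (T.ng r) || oddSum T r s ||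
      ((T.commT r s).isEmpty && cert.any fun c =>
        ((Nat.beq c.1 r && Nat.beq c.2.1 s) || (Nat.beq c.1 s && Nat.beq c.2.1 r)) &&
          swapOK T r s c.2.2) ||
      ps.any fun p => !(oddOne T p.1) &&
        (match ps.find? (fun q => Nat.beq q.1 p.1) with
          | some (_, a, b, c) => Nat.beq a p.2.1 && Nat.beq b p.2.2.1 && beqI c p.2.2.2
          | none => false) &&
        ((Nat.beq r p.2.1 && Nat.beq s p.2.2.1 && oneTerm T r s p.1 p.2.2.2) ||
          (Nat.beq r p.2.2.1 && Nat.beq s p.2.1 && oneTerm T r s p.1 (-p.2.2.2)))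

variable {F : Type*} [Field F] {D : ChevalleyDatum} {T : Fast} {G : Type*} [Group G] {C : Checked D T}
  (X : StGen C F G) {E : Type*} [Group E] {π : E →* G} (hπ : Function.Surjective π)
  (hc : π.ker ≤ Subgroup.center E) (hperf : commutator G = ⊤) (hcc : coverCheck T = true)

theorem oneTerm_spec (C : Checked D T) {r s z : ℕ} {c : ℤ} (hr : r < D.nroots) (hs : s < D.nroots)
    (h : oneTerm T r s z c = true) :
    z < D.nroots ∧ D.commTerms r s = [(z, c, 1, 1)] ∧
      ∀ t u : F, D.commWord F r s t u = [(z, (c : F) * -t * u)] := by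
  simp only [oneTerm] at h
  rw [C.commT_eq hr hs] at h
  rcases hl : D.commTerms r s with _ | ⟨p, _ | ⟨p', l⟩⟩ <;> rw [hl] at h
  · simp at h
  swap
  · simp at h
  simp only [Bool.and_eq_true] at h
  obtain ⟨⟨⟨h1, h2⟩, h3⟩, h4⟩ := h
  obtain ⟨p1, p2, p3, p4⟩ := p
  obtain rfl : p1 = z := Nat.eq_of_beq_eq_true h1
  obtain rfl : p2 = c := beqI_eq h2
  obtain rfl : p3 = 1 := Nat.eq_of_beq_eq_true h3
  obtain rfl : p4 = 1 := Nat.eq_of_beq_eq_true h4
  refine ⟨C.commTerms_lt hr hs (p1, p2, 1, 1) (by rw [hl]; exact List.mem_singleton_self _), rfl, fun t u => ?_⟩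
  simp [ChevalleyDatum.commWord, hl]

include hπ hc in
/-- the commutator of lifts of two root subgroups generating a third one -/
theorem exists_pair_form {a b z : ℕ} {c : ℤ} (ha : a < D.nroots) (hb : b < D.nroots) (hab : b ≠ a)
    (hab' : b ≠ D.neg a) (hw : ∀ t u : F, D.commWord F a b t u = [(z, (c : F) * -t * u)])
    (hzz : ∀ x y t u, π x = X.x z t → π y = X.x z u → Commute x y)
    (hza : ∀ x y t u, π x = X.x z t → π y = X.x a u → Commute x y)
    (hzb : ∀ x y t u, π x = X.x z t → π y = X.x b u → Commute x y) :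
    ∃ B : F → F → E, (∀ t u, π (B t u) = X.x z ((c : F) * -t * u)) ∧
      (∀ t t' u, B (t + t') u = B t u * B t' u) ∧ (∀ t u u', B t (u + u') = B t u * B t u') ∧
      (∀ t u x y, π x = X.x a t → π y = X.x b u → (x * y)⁻¹ * (y * x) = B t u) := by
  let L := Function.surjInv hπ
  have hL : ∀ g, π (L g) = g := Function.surjInv_eq hπ
  let B : F → F → E := fun t u => (L (X.x a t) * L (X.x b u))⁻¹ * (L (X.x b u) * L (X.x a t))
  have hval : ∀ t u x y, π x = X.x a t → π y = X.x b u → (x * y)⁻¹ * (y * x) = B t u := by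
    intro t u x y hx hy
    have h := comm_congr hc (a := y⁻¹) (b := x⁻¹) (a' := (L (X.x b u))⁻¹) (b' := (L (X.x a t))⁻¹)
      (by rw [map_inv, map_inv, hy, hL]) (by rw [map_inv, map_inv, hx, hL])
    calc (x * y)⁻¹ * (y * x) = y⁻¹ * x⁻¹ * y⁻¹⁻¹ * x⁻¹⁻¹ := by group
      _ = _ := by rw [h]; simp only [B]; group
  have hπB : ∀ t u, π (B t u) = X.x z ((c : F) * -t * u) := fun t u => by
    simp only [B, map_mul, map_inv, hL]
    rw [X.x_comm a ha b hb hab hab', hw, inv_mul_cancel_left]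
    simp [wdOf]
  refine ⟨B, hπB, fun t t' u => ?_, fun t u u' => ?_, hval⟩
  · rw [← hval (t + t') u (L (X.x a t) * L (X.x a t')) (L (X.x b u))
      (by rw [map_mul, hL, hL, X.x_add a ha]) (hL _)]
    have h1 : Commute (B t u) (L (X.x a t')) := hza _ _ _ _ (hπB t u) (hL _)
    have h2 : Commute (B t' u) (B t u) := hzz _ _ _ _ (hπB t' u) (hπB t u)
    calc (L (X.x a t) * L (X.x a t') * L (X.x b u))⁻¹ * (L (X.x b u) * (L (X.x a t) * L (X.x a t')))
        = (L (X.x b u))⁻¹ * (L (X.x a t'))⁻¹ * L (X.x b u) * (B t u * L (X.x a t')) := by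
          simp only [B]; group
      _ = B t' u * B t u := by rw [h1.eq]; simp only [B]; group
      _ = _ := h2.eq
  · rw [← hval t (u + u') (L (X.x a t)) (L (X.x b u) * L (X.x b u')) (hL _)
      (by rw [map_mul, hL, hL, X.x_add b hb])]
    have h1 : Commute (B t u) (L (X.x b u')) := hzb _ _ _ _ (hπB t u) (hL _)
    calc (L (X.x a t) * (L (X.x b u) * L (X.x b u')))⁻¹ * (L (X.x b u) * L (X.x b u') * L (X.x a t))
        = (L (X.x b u'))⁻¹ * (B t u * L (X.x b u')) * B t u' := by simp only [B]; group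
      _ = _ := by rw [h1.eq]; group

theorem kill_odd (hm1 : (-1 : F) ≠ 1) {r s q : ℕ} (hq : q < D.nroots)
    (hpar : (pair D q r + pair D q s).natAbs % 2 = 1) (f : F → F → E)
    (h1 : ∀ t t' u, f (t + t') u = f t u * f t' u) (h2 : ∀ t u u', f t (u + u') = f t u * f t u')
    (hinv : ∀ q < D.nroots, ∀ w : F, w ≠ 0 → ∀ t u, f (w ^ pair D q r * t) (w ^ pair D q s * u) = f t u)
    (t u : F) : f t u = 1 := by
  have hodd : ∀ k : ℤ, k.natAbs % 2 = 1 → (-1 : F) ^ k = -1 := fun k hk => by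
    obtain ⟨j, hj⟩ : ∃ j : ℤ, k = 2 * j + 1 := ⟨k / 2, by omega⟩
    rw [hj, zpow_add₀ (neg_ne_zero.2 one_ne_zero), zpow_mul, zpow_one]
    norm_num
  have hev : ∀ k : ℤ, k.natAbs % 2 = 0 → (-1 : F) ^ k = 1 := fun k hk => by
    obtain ⟨j, hj⟩ : ∃ j : ℤ, k = 2 * j := ⟨k / 2, by omega⟩
    rw [hj, zpow_mul]
    norm_num
  refine kill_pair h1 hm1 (fun t u => ?_) t u
  have e := hinv q hq (-1) (neg_ne_zero.2 one_ne_zero) t u
  rcases (by omega : (pair D q r).natAbs % 2 = 1 ∧ (pair D q s).natAbs % 2 = 0 ∨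
    (pair D q r).natAbs % 2 = 0 ∧ (pair D q s).natAbs % 2 = 1) with ⟨o, ev⟩ | ⟨ev, o⟩
  all_goals rw [hev _ ev, hodd _ o, one_mul] at e
  · exact e
  · have z1 : f 0 u = 1 := by
      have := h1 0 0 u
      rwa [add_zero, eq_comm, mul_eq_left] at this
    have z2 : f t 0 = 1 := by
      have := h2 t 0 0
      rwa [add_zero, eq_comm, mul_eq_left] at this
    have p1 := h1 (-1 * t) t u
    rw [show -1 * t + t = 0 by ring, z1] at p1
    have p2 := h2 t (-1 * u) u
    rw [show -1 * u + u = 0 by ring, z2, p1] at p2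
    rw [mul_right_cancel p2, e]

include hπ hc hperf hcc in
theorem exists_lift_threeB [Fintype F] (hF : Fintype.card F = 3) {ps : List (ℕ × ℕ × ℕ × ℤ)}
    {cert : List (ℕ × ℕ × List ℕ)} (h3c : check3B T ps cert = true) : Nonempty (Lift X π) := by
  classical
  have hb : ∀ r < T.n, (oddOne T r = true ∨ (match ps.find? (fun p => Nat.beq p.1 r) with
      | some (z, a, b, c) => decide (a < T.n) && decide (b < T.n) && !(Nat.beq a b) && !(Nat.beq b (T.ng a)) &&
          oneTerm T a b z c && beqI (c * c) 4 && oddOne T a && oddOne T b &&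
          !(Nat.beq a r) && !(Nat.beq b r) && !(Nat.beq a (T.ng r)) && !(Nat.beq b (T.ng r)) &&
          oddSum T r a && oddSum T r b && (T.commT r a).isEmpty && (T.commT r b).isEmpty
      | none => false) = true) ∧ ∀ s < T.n,
      ((((Nat.beq s r = true ∨ Nat.beq s (T.ng r) = true) ∨ oddSum T r s = true) ∨
      (T.commT r s).isEmpty = true ∧ ∃ c ∈ cert, ((Nat.beq c.1 r = true ∧ Nat.beq c.2.1 s = true) ∨
          (Nat.beq c.1 s = true ∧ Nat.beq c.2.1 r = true)) ∧ swapOK T r s c.2.2 = true) ∨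
      ∃ p ∈ ps, ((!(oddOne T p.1)) = true ∧ (match ps.find? (fun q => Nat.beq q.1 p.1) with
          | some (_, a, b, c) => Nat.beq a p.2.1 && Nat.beq b p.2.2.1 && beqI c p.2.2.2
          | none => false) = true) ∧
        (((Nat.beq r p.2.1 = true ∧ Nat.beq s p.2.2.1 = true) ∧ oneTerm T r s p.1 p.2.2.2 = true) ∨
          ((Nat.beq r p.2.2.1 = true ∧ Nat.beq s p.2.1 = true) ∧ oneTerm T r s p.1 (-p.2.2.2) = true))) := by
    simpa only [check3B, allBelow_iff, Bool.and_eq_true, Bool.or_eq_true, List.any_eq_true] using h3c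
  have h3 : (3 : F) = 0 := by
    have h := Nat.cast_card_eq_zero F
    rwa [hF, Nat.cast_ofNat] at h
  have hm1 : (-1 : F) ≠ 1 := fun h => one_ne_zero (α := F) (by linear_combination h3 + h)
  have hprime : ∀ t : F, ∃ n : ℕ, (n : F) = t := by
    intro t
    have h01 : ({0, 1, -1} : Finset F) = Finset.univ := Finset.eq_univ_of_card _ (by
      rw [hF, Finset.card_insert_of_notMem (by simp), Finset.card_pair (Ne.symm hm1)])
    have ht : t ∈ ({0, 1, -1} : Finset F) := by rw [h01]; exact Finset.mem_univ t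
    simp only [Finset.mem_insert, Finset.mem_singleton] at ht
    rcases ht with rfl | rfl | rfl
    · exact ⟨0, Nat.cast_zero⟩
    · exact ⟨1, Nat.cast_one⟩
    · exact ⟨2, by push_cast; linear_combination h3⟩
  have hodd1 : ∀ k : ℤ, k.natAbs % 2 = 1 → (-1 : F) ^ k = -1 := fun k hk => by
    obtain ⟨j, hj⟩ : ∃ j : ℤ, k = 2 * j + 1 := ⟨k / 2, by omega⟩
    rw [hj, zpow_add₀ (neg_ne_zero.2 one_ne_zero), zpow_mul, zpow_one]
    norm_num
  have hsum : ∀ r s, r < D.nroots → s < D.nroots → oddSum T r s = true →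
      ∃ q < D.nroots, (pair D q r + pair D q s).natAbs % 2 = 1 := fun r s hr hs h => by
    simp only [oddSum, List.any_eq_true, List.mem_range] at h
    obtain ⟨q, hq, e⟩ := h
    rw [← C.tables.nroots] at hq
    rw [cpr_eq C hq hr, cpr_eq C hq hs] at e
    exact ⟨q, hq, Nat.eq_of_beq_eq_true e⟩
  have hone : ∀ r, r < D.nroots → oddOne T r = true → ∃ q < D.nroots, (pair D q r).natAbs % 2 = 1 :=
    fun r hr h => by
      simp only [oddOne, List.any_eq_true, List.mem_range] at h
      obtain ⟨q, hq, e⟩ := h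
      rw [← C.tables.nroots] at hq
      rw [cpr_eq C hq hr] at e
      exact ⟨q, hq, Nat.eq_of_beq_eq_true e⟩
  have hcomO : ∀ r s, r < D.nroots → s < D.nroots → oddSum T r s = true →
      (∀ t u, X.x r t * X.x s u = X.x s u * X.x r t) →
      ∀ a b t u, π a = X.x r t → π b = X.x s u → Commute a b := fun r s hr hs ho hG a b t u ha hb' => by
    obtain ⟨q, hq, hpar⟩ := hsum r s hr hs ho
    exact commute_of_kill X hπ hc hcc hr hs hG (kill_odd hm1 hq hpar) ha hb'
  -- the pairs of short roots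
  have hpair : ∀ r < D.nroots, oddOne T r = false → ∃ a b : ℕ, ∃ c : ℤ, a < D.nroots ∧ b < D.nroots ∧
      oddOne T a = true ∧ oddOne T b = true ∧ ((c : F) * (c : F) = 1) ∧
      (∀ t u : F, D.commWord F a b t u = [(r, (c : F) * -t * u)]) ∧ D.commTerms a b = [(r, c, 1, 1)] ∧
      ps.find? (fun p => Nat.beq p.1 r) = some (r, a, b, c) ∧
      ∃ B : F → F → E, (∀ t u, π (B t u) = X.x r ((c : F) * -t * u)) ∧
        (∀ t t' u, B (t + t') u = B t u * B t' u) ∧ (∀ t u u', B t (u + u') = B t u * B t u') ∧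
        (∀ t u x y, π x = X.x a t → π y = X.x b u → (x * y)⁻¹ * (y * x) = B t u) := by
    intro r hr ho
    have h := (hb r (C.tables.nroots ▸ hr)).1.resolve_left (by rw [ho]; simp)
    rcases hf : ps.find? (fun p => Nat.beq p.1 r) with _ | ⟨z, a, b, c⟩ <;> rw [hf] at h
    · simp at h
    simp only [Bool.and_eq_true, decide_eq_true_eq] at h
    obtain ⟨⟨⟨⟨⟨⟨⟨⟨⟨⟨⟨⟨⟨⟨⟨ha, hb'⟩, nab⟩, nab'⟩, hone'⟩, hc4⟩, hoa⟩, hob⟩, nar⟩, nbr⟩, nar'⟩, nbr'⟩, sa⟩, sb⟩, ea⟩, eb⟩ := h
    rw [← C.tables.nroots] at ha hb'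
    have hbne : ∀ {x y : ℕ}, (!Nat.beq x y) = true → x ≠ y := fun h e => by
      rw [e] at h; simp [Nat.beq_refl] at h
    obtain rfl : z = r := Nat.eq_of_beq_eq_true (by simpa using List.find?_some hf)
    obtain ⟨-, hct, hw⟩ := oneTerm_spec (F := F) C ha hb' hone'
    have hba : b ≠ D.neg a := by rw [C.tables.neg a ha]; exact hbne nab'
    have hcast : (c : F) * (c : F) = 1 := by
      rw [← Int.cast_mul, beqI_eq hc4]
      push_cast
      linear_combination h3
    have hGz : ∀ y, y < D.nroots → y ≠ z → y ≠ D.neg z → (T.commT z y).isEmpty = true →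
        ∀ t u, X.x z t * X.x y u = X.x y u * X.x z t := fun y hy n1 n2 he t u => by
      rw [C.commT_eq hr hy, List.isEmpty_iff] at he
      rw [X.x_comm z hr y hy n1 n2, ChevalleyDatum.commWord, he]
      simp [wdOf]
    refine ⟨a, b, c, ha, hb', hoa, hob, hcast, hw, hct, hf, exists_pair_form X hπ hc ha hb'
      (Ne.symm (hbne nab)) hba hw (fun x y t u hx hy => commute_self_prime X hπ hc hprime hr hx hy)
      (fun x y t u hx hy => hcomO z a hr ha sa
        (hGz a ha (hbne nar) (by rw [C.tables.neg z hr]; exact hbne nar') ea) x y t u hx hy)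
      (fun x y t u hx hy => hcomO z b hr hb' sb
        (hGz b hb' (hbne nbr) (by rw [C.tables.neg z hr]; exact hbne nbr') eb) x y t u hx hy)⟩
  choose pa pb pc hpa hpb hoa hob hcc2 hw hct hfind PB hπB hB1 hB2 hBv using hpair
  choose qq hqq hqodd using hone
  let L := Function.surjInv hπ
  have hL : ∀ g, π (L g) = g := Function.surjInv_eq hπ
  let φ : ℕ → F → E := fun r t =>
    if h : r < D.nroots then
      if ho : oddOne T r = true then
        L (X.tg (qq r h ho) (-1)) * L (X.x r (t / (-1 - 1))) *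
          (L (X.tg (qq r h ho) (-1)))⁻¹ * (L (X.x r (t / (-1 - 1))))⁻¹
      else PB r h (by simpa using ho) (-((pc r h (by simpa using ho) : F) * t)) 1
    else 1
  have hd0 : (-1 : F) - 1 ≠ 0 := sub_ne_zero.2 hm1
  have hφo : ∀ r (h : r < D.nroots) (ho : oddOne T r = true) (t : F), φ r t =
      L (X.tg (qq r h ho) (-1)) * L (X.x r (t / (-1 - 1))) *
        (L (X.tg (qq r h ho) (-1)))⁻¹ * (L (X.x r (t / (-1 - 1))))⁻¹ := fun r h ho t => by
    simp only [φ, dif_pos h, dif_pos ho]
  have hφe : ∀ r (h : r < D.nroots) (ho : oddOne T r = false) (t : F),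
      φ r t = PB r h ho (-((pc r h ho : F) * t)) 1 := fun r h ho t => by
    simp only [φ, dif_pos h, ho, Bool.false_eq_true, ↓reduceDIte]
  have hπφ : ∀ r < D.nroots, ∀ t, π (φ r t) = X.x r t := by
    intro r hr t
    rcases ho : oddOne T r with _ | _
    · rw [hφe r hr ho, hπB]
      congr 1
      linear_combination t * hcc2 r hr ho
    · rw [hφo r hr ho]
      simp only [map_mul, map_inv, hL]
      rw [X.tg_conj hcc _ (neg_ne_zero.2 one_ne_zero) hr, X.x_inv hr, X.x_add r hr,
        hodd1 _ (hqodd r hr ho)]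
      congr 1
      rw [← sub_eq_add_neg, ← sub_one_mul, mul_div_cancel₀ _ hd0]
  -- the forms depend only on the product
  have hBmul : ∀ r (h : r < D.nroots) (ho : oddOne T r = false) (t u : F),
      PB r h ho t u = PB r h ho (t * u) 1 := fun r h ho t u => by
    obtain ⟨n, rfl⟩ := hprime t
    obtain ⟨m, rfl⟩ := hprime u
    have e1 := natCast_form (hB1 r h ho) (hB2 r h ho) 1 1 n m
    have e2 := natCast_form (hB1 r h ho) (hB2 r h ho) 1 1 (n * m) 1
    rw [mul_one, mul_one] at e1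
    rw [Nat.cast_mul, mul_one, Nat.cast_one, mul_one, mul_one] at e2
    rw [e1, e2]
  refine ⟨{
    φ := φ
    central := hc
    π_φ := hπφ
    add := ?_
    S := {χ | ∃ q < D.nroots, ∃ a : F, a ≠ 0 ∧ χ = fun r => a ^ pair D q r}
    cov := ?_
    act := ?_
    kill := ?_ }⟩
  · intro r hr t u
    rcases ho : oddOne T r with _ | _
    · rw [hφe r hr ho, hφe r hr ho, hφe r hr ho, ← hB1]
      congr 1
      ring
    · rw [hφo r hr ho (t + u)]
      set g := L (X.tg (qq r hr ho) (-1))
      have hcm : Commute (L (X.x r (t / (-1 - 1)))) (φ r u) :=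
        commute_self_prime X hπ hc hprime hr (hL _) (hπφ r hr u)
      rw [comm_congr hc (rfl : π g = π g) (b' := L (X.x r (t / (-1 - 1))) * L (X.x r (u / (-1 - 1))))
        (by rw [map_mul, hL, hL, hL, X.x_add r hr, add_div])]
      have ht := hφo r hr ho t
      have hu := hφo r hr ho u
      generalize L (X.x r (t / (-1 - 1))) = y1 at hcm ht ⊢
      generalize L (X.x r (u / (-1 - 1))) = y2 at hu ⊢
      calc φ r t * φ r u = φ r t * (y1 * φ r u * y1⁻¹) := by
            rw [hcm.eq]; group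
        _ = _ := by rw [ht, hu]; simp only [g]; group
  · rintro χ ⟨q', hq', a, ha, rfl⟩ r hr s hs t u
    exact commWord_chr C (C.isChr_pair q' ha) hr hs t u
  · rintro χ ⟨q', hq', a, ha, rfl⟩
    refine ⟨L (X.tg q' a), fun r hr t => ?_⟩
    set e := L (X.tg q' a)
    rcases ho : oddOne T r with _ | _
    · rw [hφe r hr ho, hφe r hr ho]
      set A := pa r hr ho
      set B := pb r hr ho
      set w := -((pc r hr ho : F) * t)
      have hA := hpa r hr ho
      have hB := hpb r hr ho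
      have hx : π (e * L (X.x A w) * e⁻¹) = X.x A (a ^ pair D q' A * w) := by
        rw [map_mul, map_mul, map_inv, hL, hL, X.tg_conj hcc q' ha hA]
      have hy : π (e * L (X.x B 1) * e⁻¹) = X.x B (a ^ pair D q' B * 1) := by
        rw [map_mul, map_mul, map_inv, hL, hL, X.tg_conj hcc q' ha hB]
      have hchi : a ^ pair D q' r = a ^ pair D q' A * a ^ pair D q' B := by
        have := commTerms_chr C (C.isChr_pair q' ha) hA hB (r, pc r hr ho, 1, 1)
          (by rw [hct r hr ho]; simp)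
        simpa using this
      calc e * PB r hr ho w 1 * e⁻¹
          = e * ((L (X.x A w) * L (X.x B 1))⁻¹ * (L (X.x B 1) * L (X.x A w))) * e⁻¹ := by
            rw [hBv r hr ho w 1 _ _ (hL _) (hL _)]
        _ = ((e * L (X.x A w) * e⁻¹) * (e * L (X.x B 1) * e⁻¹))⁻¹ *
            ((e * L (X.x B 1) * e⁻¹) * (e * L (X.x A w) * e⁻¹)) := by group
        _ = PB r hr ho (a ^ pair D q' A * w) (a ^ pair D q' B * 1) := hBv r hr ho _ _ _ _ hx hy
        _ = _ := by
          simp only []
          rw [hBmul, hchi]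
          congr 1
          simp only [w]
          ring
    · rw [hφo r hr ho, hφo r hr ho]
      set g := L (X.tg (qq r hr ho) (-1))
      set y := L (X.x r (t / (-1 - 1))) with hy
      obtain ⟨c, hcdef⟩ : ∃ c, e * g * e⁻¹ = c * g := ⟨e * g * e⁻¹ * g⁻¹, by group⟩
      have hcy : c ∈ Subgroup.center E := by
        refine central_lift hπ hc hperf ?_
        rw [show c = e * g * e⁻¹ * g⁻¹ by rw [hcdef]; group, map_mul, map_mul, map_mul, map_inv, map_inv, hL,
          hL]
        exact X.H_comm_center hcc (X.tg_mem_H q' ha) (X.tg_mem_H _ (neg_ne_zero.2 one_ne_zero))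
      have hey : π (e * y * e⁻¹) = π (L (X.x r ((a ^ pair D q' r * t) / (-1 - 1)))) := by
        rw [map_mul, map_mul, map_inv, hL, hL, hL, X.tg_conj hcc q' ha hr, mul_div_assoc]
      calc e * (g * y * g⁻¹ * y⁻¹) * e⁻¹
          = (e * g * e⁻¹) * (e * y * e⁻¹) * (e * g * e⁻¹)⁻¹ * (e * y * e⁻¹)⁻¹ := by group
        _ = g * (e * y * e⁻¹) * g⁻¹ * (e * y * e⁻¹)⁻¹ := by
            rw [hcdef]
            calc c * g * (e * y * e⁻¹) * (c * g)⁻¹ * (e * y * e⁻¹)⁻¹
                = c * (g * (e * y * e⁻¹) * g⁻¹) * c⁻¹ * (e * y * e⁻¹)⁻¹ := by group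
              _ = _ := by rw [← Subgroup.mem_center_iff.1 hcy]; group
        _ = _ := comm_congr hc rfl hey
  · intro r hr s hs h1 h2 f hdef _ hf1 hf2 hinv t u
    rcases (hb r (C.tables.nroots ▸ hr)).2 s (C.tables.nroots ▸ hs) with ((h | h) | h) | h
    · exfalso
      rcases h with h | h
      · exact h1 (Nat.eq_of_beq_eq_true h)
      · exact h2 (by rw [C.tables.neg r hr]; exact Nat.eq_of_beq_eq_true h)
    · obtain ⟨q, hq, hpar⟩ := hsum r s hr hs h
      exact kill_odd hm1 hq hpar f hf1 hf2 (fun q hq w hw => hinv _ ⟨q, hq, w, hw, rfl⟩) t u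
    · obtain ⟨he, c, -, -, hsw⟩ := h
      rw [C.commT_eq hr hs, List.isEmpty_iff] at he
      have hG : ∀ t u, X.x r t * X.x s u = X.x s u * X.x r t := fun t u => by
        rw [X.x_comm r hr s hs h1 h2, ChevalleyDatum.commWord, he]; simp [wdOf]
      rw [hdef t u, ChevalleyDatum.commWord, he, List.map_nil, wdOf, List.map_nil, List.prod_nil, mul_one,
        (commute_of_swap X hπ hc hcc hprime h3 hr hs hG hsw (hπφ r hr t) (hπφ s hs u)).eq, inv_mul_cancel]
    · obtain ⟨⟨z, A, B, c⟩, -, ⟨hoz, hfz⟩, h⟩ := h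
      simp only [Bool.not_eq_true'] at hoz
      have key : ∀ r' s' : ℕ, ∀ c' : ℤ, r' < D.nroots → s' < D.nroots → oneTerm T r' s' z c' = true →
          ∃ hz : z < D.nroots, pa z hz hoz = A ∧ pb z hz hoz = B ∧ pc z hz hoz = c ∧
            ∀ t u : F, D.commWord F r' s' t u = [(z, (c' : F) * -t * u)] := by
        intro r' s' c' hr' hs' h
        obtain ⟨hz, -, hw'⟩ := oneTerm_spec (F := F) C hr' hs' h
        rw [hfind z hz hoz] at hfz
        simp only [Bool.and_eq_true] at hfz
        exact ⟨hz, Nat.eq_of_beq_eq_true hfz.1.1, Nat.eq_of_beq_eq_true hfz.1.2, beqI_eq hfz.2, hw'⟩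
      rcases h with ⟨⟨e1, e2⟩, ho'⟩ | ⟨⟨e1, e2⟩, ho'⟩
      all_goals
        obtain ⟨hz, ea, eb, ec, hw'⟩ := key r s _ hr hs ho'
        rw [hdef t u, hw', wdOf, List.map_singleton, List.prod_singleton, hφe z hz hoz, ec]
      · have hv := hBv z hz hoz t u (φ r t) (φ s u)
          (by rw [hπφ r hr, ea, Nat.eq_of_beq_eq_true e1]) (by rw [hπφ s hs, eb, Nat.eq_of_beq_eq_true e2])
        rw [mul_inv_rev, mul_assoc, hv, inv_mul_eq_one, hBmul z hz hoz t u]
        congr 1
        rw [← ec]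
        linear_combination (t * u) * hcc2 z hz hoz
      · have hv := hBv z hz hoz u t (φ s u) (φ r t)
          (by rw [hπφ s hs, ea, Nat.eq_of_beq_eq_true e2]) (by rw [hπφ r hr, eb, Nat.eq_of_beq_eq_true e1])
        set W := -((c : F) * ((((-c : ℤ)) : F) * -t * u)) with hW
        have hsum0 : PB z hz hoz W 1 * PB z hz hoz u t = 1 := by
          rw [hBmul z hz hoz u t, ← hB1, show W + u * t = 0 by
            have hcz : (c : F) * c = 1 := by rw [← ec]; exact hcc2 z hz hoz
            rw [hW]; push_cast; linear_combination (-(t * u)) * hcz]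
          have := hB1 z hz hoz 0 0 1
          rwa [add_zero, eq_comm, mul_eq_left] at this
        calc (φ r t * φ s u * PB z hz hoz W 1)⁻¹ * (φ s u * φ r t)
            = (PB z hz hoz W 1)⁻¹ * ((φ r t * φ s u)⁻¹ * (φ s u * φ r t)) := by group
          _ = (PB z hz hoz W 1)⁻¹ * (PB z hz hoz u t)⁻¹ := by rw [← hv]; group
          _ = 1 := by rw [← mul_inv_rev, inv_eq_one, mul_eq_one_comm]; exact hsum0

/-- exchanging words for B₂ -/
def swapsB2 : List (ℕ × ℕ × List ℕ) := [(0, 3, [0]), (0, 4, [1, 0, 1]), (3, 7, [1, 0, 1]), (4, 7, [0])]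

/-- pairs of short roots for B₂ -/
def pairsB2 : List (ℕ × ℕ × ℕ × ℤ) := [(0, 1, 2, 2), (3, 1, 5, -2), (4, 2, 6, -2), (7, 5, 6, 2)]

theorem three_B2 : check3B B2.fast pairsB2 swapsB2 = true := by decide +kernel

end Cfsg.Agent.Lib.SteinbergPres.Cover
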