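import Cfsg.Agent.Lib.SteinbergPres.Cover.Mult
import Cfsg.Agent.Lib.SteinbergPres.Cover.ModP
import Cfsg.Agent.S2395
import Cfsg.Agent.S2397
import Cfsg.Agent.S1077

/-!
Trivial multipliers of presented groups from lifts.
-/

set_option autoImplicit false

namespace Cfsg.Agent.Lib.SteinbergPres.Cover

open Cfsg.Lie Cfsg.Agent.Lib.Chev

universe u

/-- lifts in every central extension make the multiplier of the presented group trivial -/
theorem hasCyclic_of_lifts {D : ChevalleyDatum} {T : Fast} {F : Type u} [Field F] [Finite F]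
    (C : Checked D T) (hcc : coverCheck T = true)
    (hD : D ∈ [chevG2, chevB2, chevD4, chevF4, chevE6, chevE7, chevE8])
    (hK : D ∈ [chevB2, chevG2] → ∃ x : F, x ≠ 0 ∧ x ≠ 1)
    (h : ∀ (X : StGen C F (D.SteinbergGroup F)) (Γ : Type u) [Group Γ]
      (π : Γ →* D.SteinbergGroup F), Function.Surjective π → π.ker ≤ Subgroup.center Γ →
      commutator (D.SteinbergGroup F) = ⊤ → Nonempty (Lift X π)) :
    Cfsg.HasCyclicSchurMultiplier (D.SteinbergGroup F) 1 := by
  obtain ⟨θ, -, -, hθ⟩ := Cfsg.Agent.S1077.result (K := F) D hD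
  have : Finite (D.SteinbergGroup F) := finite_steinbergGroup C hcc θ hθ
  obtain ⟨e, he⟩ := Cfsg.Agent.S2397.result (K := F) D hD hK
  have hperf : commutator (D.SteinbergGroup F) = ⊤ := by
    have h0 := Cfsg.Agent.S2395.result (K := F) D hD hK
    rw [commutator_def, ← (MonoidHom.range_eq_top (f := e.toMonoidHom)).2 e.surjective,
      ← map_commutator_eq _ e.toMonoidHom, h0, ← MonoidHom.range_eq_map]
  refine hasCyclic_one_of_section fun Γ _ _ σ hs hc => ?_
  obtain ⟨Y⟩ := h (stGrp C θ hθ) Γ σ hs hc hperf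
  obtain ⟨τ, hτ⟩ := exists_cover_hom Y
  refine exists_section_of_bijective e.toMonoidHom e.bijective σ τ (PresentedGroup.ext fun q => ?_)
  have h1 : PresentedGroup.of (rels := D.steinbergRelsAB F) q = D.scGen F q.1 q.2 := by
    simp [ChevalleyDatum.scGen, ChevalleyDatum.stX, PresentedGroup.of]
  rw [MonoidHom.comp_apply, h1, hτ q.1 q.1.2 q.2, MulEquiv.coe_toMonoidHom, he]
  rfl

/-- transport along an isomorphism -/
theorem hasCyclic_one_equiv {G H : Type u} [Group G] [Group H] [Finite H] (e : G ≃* H)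
    (h : Cfsg.HasCyclicSchurMultiplier G 1) : Cfsg.HasCyclicSchurMultiplier H 1 := by
  have : Subsingleton (Multiplicative (ZMod 1)) := Multiplicative.toAdd.injective.subsingleton
  letI : Unique (Multiplicative (ZMod 1)) := uniqueOfSubsingleton 1
  have hid : (MonoidHom.id H).ker = ⊥ := (MonoidHom.ker_eq_bot_iff _).2 Function.injective_id
  have : Subsingleton ↥(MonoidHom.id H).ker := ⟨fun a b => Subtype.ext (by
    have ha : (a : H) = 1 := a.2
    have hb : (b : H) = 1 := b.2
    rw [ha, hb])⟩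
  letI : Unique ↥(MonoidHom.id H).ker := uniqueOfSubsingleton 1
  refine ⟨⟨H, inferInstance, inferInstance, MonoidHom.id H,
    ⟨Function.surjective_id, hid.trans_le bot_le, hid.trans_le bot_le⟩, ⟨MulEquiv.ofUnique⟩⟩, ?_⟩
  intro Γ _ _ σ hσ
  have hker : (e.symm.toMonoidHom.comp σ).ker = σ.ker := by
    ext z
    simp [MonoidHom.mem_ker]
  obtain ⟨π, hπ⟩ := h.2 Γ (e.symm.toMonoidHom.comp σ) ⟨e.symm.surjective.comp hσ.1, hker ▸ hσ.2.1, hker ▸ hσ.2.2⟩
  refine ⟨1, fun z => ⟨1, ?_⟩⟩
  obtain ⟨a, ha⟩ := hπ ⟨z.1, hker.symm ▸ z.2⟩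
  rw [Subsingleton.elim a 1, map_one] at ha
  exact Subtype.ext (by simpa using congrArg Subtype.val ha)

end Cfsg.Agent.Lib.SteinbergPres.Cover
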