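import Cfsg.Agent.Lib.SteinbergPres.Cover.Small

/-!
Lifts over the field with two elements for the simply laced types: root subgroups are lifted by commutators,
and everything is transported to one root.
-/

set_option autoImplicit false

namespace Cfsg.Agent.Lib.SteinbergPres.Cover

open Cfsg.Lie Cfsg.Agent.Lib.Chev

/-- the root subgroups commute in characteristic two -/
def gcT (T : Fast) (q r : ℕ) : Bool :=
  !(Nat.beq q r) && !(Nat.beq q (T.ng r)) && (T.commT q r).all fun c => Nat.beq (c.2.1.natAbs % 2) 0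

/-- `r` is the single term of the commutator of `a`, `b` -/
def decT (T : Fast) (a b r : ℕ) : Bool :=
  !(Nat.beq a b) && !(Nat.beq b (T.ng a)) &&
    match T.commT a b with
      | [c] => Nat.beq c.1 r && Nat.beq (c.2.1.natAbs % 2) 1
      | _ => false

/-- a word moving `r` to `r₀` -/
def climb (T : Fast) (r₀ : ℕ) : ℕ → ℕ → List ℕ
  | 0, _ => []
  | k + 1, r =>
    bif Nat.beq r r₀ then [] else
      match (List.range T.l).find? (fun i => Fast.ltI (T.A i r) 0) with
        | some i => climb T r₀ k (T.w i r) ++ [i]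
        | none => []

/-- fundamental roots orthogonal to `r₀` -/
def orthGens (T : Fast) (r₀ : ℕ) : List ℕ :=
  (List.range T.l).filter fun i => gcT T (T.sp i) r₀ && gcT T (T.ng (T.sp i)) r₀ && Nat.beq (T.w i r₀) r₀

/-- pairs reachable by reflections orthogonal to `r₀` and exchanges -/
def reach (T : Fast) (gs : List ℕ) : ℕ → List (ℕ × ℕ) → List (ℕ × ℕ)
  | 0, P => P
  | k + 1, P => reach T gs k ((P.flatMap fun p => (p.2, p.1) :: gs.map fun i => (T.w i p.1, T.w i p.2)).foldl
      (fun acc p => bif acc.any (fun q => Nat.beq q.1 p.1 && Nat.beq q.2 p.2) then acc else p :: acc) P)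

/-- one of the two is a term of roots commuting with the other -/
def sidesOK (T : Fast) (x y : ℕ) : Bool :=
  (List.range T.n).any fun a => gcT T a x && (List.range T.n).any fun b => decT T a b y && gcT T b x

/-- tables for the field with two elements -/
def check2 (T : Fast) (r₀ a₀ b₀ fuel steps : ℕ) : Bool :=
  decide (r₀ < T.n) && decide (a₀ < T.n) && decide (b₀ < T.n) && decT T a₀ b₀ r₀ && gcT T a₀ r₀ &&
    allBelow T.n (fun r => (climb T r₀ fuel r).all (fun i => decide (i < T.l)) &&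
      Nat.beq (actT T (climb T r₀ fuel r) r).1 r₀) &&
    allBelow T.n (fun s => Nat.beq s r₀ || Nat.beq s (T.ng r₀) ||
      (bif gcT T r₀ s then sidesOK T r₀ s || sidesOK T s r₀ else
        (List.range T.n).any fun z => decT T r₀ s z)) &&
    (let P := reach T (orthGens T r₀) steps [(a₀, b₀)]
     allBelow T.n fun a => allBelow T.n fun b => !(decT T a b r₀) ||
      P.any fun q => Nat.beq q.1 a && Nat.beq q.2 b)

variable {F : Type*} [Field F] {D : ChevalleyDatum} {T : Fast} {G : Type*} [Group G] {C : Checked D T}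
  (X : StGen C F G) {E : Type*} [Group E] {π : E →* G} (hπ : Function.Surjective π)
  (hc : π.ker ≤ Subgroup.center E) (hcc : coverCheck T = true)

/-- commutator terms along a word -/
theorem commTerms_rwd (C : Checked D T) : ∀ (L : List ℕ), (∀ i ∈ L, i < D.rank) → ∀ r < D.nroots, ∀ s < D.nroots,
    ∃ f : ℕ × ℤ × ℕ × ℕ → ℕ × ℤ × ℕ × ℕ,
      D.commTerms (StGen.rwd D L r) (StGen.rwd D L s) = (D.commTerms r s).map f ∧
        ∀ c, (f c).1 = StGen.rwd D L c.1 ∧ (f c).2.1.natAbs = c.2.1.natAbs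
  | [], _, r, _, s, _ => ⟨id, by simp [StGen.rwd], fun c => ⟨rfl, rfl⟩⟩
  | i :: L, hL, r, hr, s, hs => by
    have hL' : ∀ j ∈ L, j < D.rank := fun j hj => hL j (by simp [hj])
    obtain ⟨f, hf, hf'⟩ := commTerms_rwd C L hL' r hr s hs
    rw [StGen.rwd_cons, StGen.rwd_cons, C.commTerms_refl (hL i (by simp)) (StGen.rwd_lt C L hL' hr)
      (StGen.rwd_lt C L hL' hs), hf, List.map_map]
    refine ⟨_, rfl, fun c => ⟨?_, ?_⟩⟩
    · simp only [Function.comp_apply, (hf' c).1]
      rfl
    · have hs1 : ∀ b, (sgn b).natAbs = 1 := fun b => by cases b <;> rfl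
      simp only [Function.comp_apply, Int.natAbs_mul, Int.natAbs_pow, hs1, one_pow, one_mul, (hf' c).2]

include hπ hc hcc in
theorem exists_lift_two [Fintype F] (hF : Fintype.card F = 2) {r₀ a₀ b₀ fuel steps : ℕ}
    (h2c : check2 T r₀ a₀ b₀ fuel steps = true) : Nonempty (Lift X π) := by
  classical
  simp only [check2, Bool.and_eq_true, decide_eq_true_eq, allBelow_iff, Bool.or_eq_true, List.all_eq_true,
    List.any_eq_true, Bool.not_eq_true'] at h2c
  obtain ⟨⟨⟨⟨⟨⟨⟨hr₀, ha₀⟩, hb₀⟩, hdec₀⟩, hga₀⟩, hclimb⟩, hbase⟩, hreach⟩ := h2c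
  rw [← C.tables.nroots] at hr₀ ha₀ hb₀
  have h01 : ∀ t : F, t = 0 ∨ t = 1 := fun t => by
    have h : ({0, 1} : Finset F) = Finset.univ := Finset.eq_univ_of_card _ (by
      rw [hF, Finset.card_pair zero_ne_one])
    have ht : t ∈ ({0, 1} : Finset F) := by rw [h]; exact Finset.mem_univ t
    simpa using ht
  have h2 : (2 : F) = 0 := by
    have h := Nat.cast_card_eq_zero F
    rwa [hF, Nat.cast_ofNat] at h
  have hev : ∀ c : ℤ, c.natAbs % 2 = 0 → (c : F) = 0 := fun c hc' => by
    obtain ⟨j, rfl⟩ : (2 : ℤ) ∣ c := by omega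
    push_cast; rw [h2, zero_mul]
  have hod : ∀ c : ℤ, c.natAbs % 2 = 1 → (c : F) = 1 := fun c hc' => by
    obtain ⟨j, rfl⟩ : ∃ j : ℤ, c = 2 * j + 1 := ⟨c / 2, by omega⟩
    push_cast; rw [h2, zero_mul, zero_add]
  have hneg : (-1 : F) = 1 := by linear_combination -h2
  have hbne : ∀ {x y : ℕ}, (!Nat.beq x y) = true → x ≠ y := fun h e => by
    rw [e] at h; simp [Nat.beq_refl] at h
  let L := Function.surjInv hπ
  have hL : ∀ g, π (L g) = g := Function.surjInv_eq hπ
  -- roots commuting in characteristic two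
  have hgc : ∀ q r, q < D.nroots → r < D.nroots → gcT T q r = true →
      r ≠ q ∧ r ≠ D.neg q ∧ ∀ t u, X.x q t * X.x r u = X.x r u * X.x q t := by
    intro q r hq hr h
    simp only [gcT, Bool.and_eq_true, List.all_eq_true] at h
    obtain ⟨⟨n1, n2⟩, n3⟩ := h
    rw [← C.tables.neg r hr] at n2
    have hneg' : r ≠ D.neg q := fun e => hbne n2 (by rw [e, C.root.neg_neg' hq])
    refine ⟨Ne.symm (hbne n1), hneg', fun t u => ?_⟩
    rw [C.commT_eq hq hr] at n3
    rw [X.x_comm q hq r hr (Ne.symm (hbne n1)) hneg' t u]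
    have hwd : wdOf X.x (D.commWord F q r t u) = 1 := by
      refine List.prod_eq_one fun g hg => ?_
      simp only [ChevalleyDatum.commWord, List.map_map, List.mem_map, Function.comp_apply] at hg
      obtain ⟨c, hc', rfl⟩ := hg
      simp only [hev _ (Nat.eq_of_beq_eq_true (n3 c hc')), zero_mul]
      exact X.x_zero (C.commTerms_lt hq hr c hc')
    rw [hwd, mul_one]
  have hdc : ∀ a b r, a < D.nroots → b < D.nroots → decT T a b r = true → b ≠ a ∧ b ≠ D.neg a ∧
      r < D.nroots ∧ D.commWord F a b 1 1 = [(r, 1)] := by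
    intro a b r ha hb h
    simp only [decT, Bool.and_eq_true] at h
    obtain ⟨⟨n1, n2⟩, h⟩ := h
    rw [← C.tables.neg a ha] at n2
    rw [C.commT_eq ha hb] at h
    rcases hl : D.commTerms a b with _ | ⟨c, _ | ⟨c', l⟩⟩ <;> rw [hl] at h
    · simp at h
    swap
    · simp at h
    simp only [Bool.and_eq_true] at h
    obtain rfl : c.1 = r := Nat.eq_of_beq_eq_true h.1
    refine ⟨Ne.symm (hbne n1), hbne n2, C.commTerms_lt ha hb c (by rw [hl]; exact List.mem_singleton_self _), ?_⟩
    simp [ChevalleyDatum.commWord, hl, hod _ (Nat.eq_of_beq_eq_true h.2), hneg]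
  -- commutators of lifts
  let B : ℕ → ℕ → E := fun a b => (L (X.x a 1) * L (X.x b 1))⁻¹ * (L (X.x b 1) * L (X.x a 1))
  have hBv : ∀ a b x y, π x = X.x a 1 → π y = X.x b 1 → (x * y)⁻¹ * (y * x) = B a b := by
    intro a b x y hx hy
    have h := comm_congr hc (a := y⁻¹) (b := x⁻¹) (a' := (L (X.x b 1))⁻¹) (b' := (L (X.x a 1))⁻¹)
      (by rw [map_inv, map_inv, hy, hL]) (by rw [map_inv, map_inv, hx, hL])
    calc (x * y)⁻¹ * (y * x) = y⁻¹ * x⁻¹ * y⁻¹⁻¹ * x⁻¹⁻¹ := by group
      _ = _ := by rw [h]; simp only [B]; group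
  have hBsymm : ∀ a b, B b a = (B a b)⁻¹ := fun a b => by simp only [B]; group
  have hπB : ∀ a b r, a < D.nroots → b < D.nroots → decT T a b r = true → π (B a b) = X.x r 1 := by
    intro a b r ha hb h
    obtain ⟨n1, n2, -, hw⟩ := hdc a b r ha hb h
    simp only [B, map_mul, map_inv, hL]
    rw [X.x_comm a ha b hb n1 n2, hw, inv_mul_cancel_left]
    simp [wdOf]
  have hBconj : ∀ a b a' b' e, π e * X.x a 1 * (π e)⁻¹ = X.x a' 1 → π e * X.x b 1 * (π e)⁻¹ = X.x b' 1 →
      e * B a b * e⁻¹ = B a' b' := by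
    intro a b a' b' e ha hb
    rw [← hBv a' b' (e * L (X.x a 1) * e⁻¹) (e * L (X.x b 1) * e⁻¹)
      (by rw [map_mul, map_mul, map_inv, hL, ha]) (by rw [map_mul, map_mul, map_inv, hL, hb])]
    simp only [B]; group
  -- transport
  let W : ℕ → List ℕ := fun r => climb T r₀ fuel r
  have hW : ∀ r < D.nroots, (∀ i ∈ W r, i < D.rank) ∧ StGen.rwd D (W r) r = r₀ := by
    intro r hr
    obtain ⟨h1, h2'⟩ := hclimb r (C.tables.nroots ▸ hr)
    have h1' : ∀ i ∈ W r, i < D.rank := fun i hi => C.tables.rank ▸ h1 i hi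
    exact ⟨h1', by rw [← (actT_spec (F := F) C (W r) h1' r hr).1]; exact Nat.eq_of_beq_eq_true h2'⟩
  have hcw : ∀ (l : List ℕ) s, StGen.cw T F D l s = 1 := fun l s => by
    rcases h01 (StGen.cw T F D l s) with e | e
    · exfalso
      have := StGen.cw_sq (T := T) (F := F) (D := D) l s
      rw [e, mul_zero] at this
      exact zero_ne_one this
    · exact e
  have hnw : ∀ (l : List ℕ), (∀ i ∈ l, i < D.rank) → ∀ s < D.nroots, ∀ u,
      π (L (X.nw l)) * X.x s u * (π (L (X.nw l)))⁻¹ = X.x (StGen.rwd D l s) u := fun l hl s hs u => by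
    rw [hL, X.nw_conj hcc l hl s hs u, hcw, one_mul]
  -- commuting lifts
  have hside : ∀ x y, x < D.nroots → y < D.nroots → sidesOK T x y = true →
      ∀ p q, π p = X.x x 1 → π q = X.x y 1 → Commute p q := by
    intro x y hx hy h p q hp hq
    simp only [sidesOK, List.any_eq_true, List.mem_range, Bool.and_eq_true] at h
    obtain ⟨a, ha, ga, b, hb, hd, gb⟩ := h
    rw [← C.tables.nroots] at ha hb
    obtain ⟨-, -, cga⟩ := hgc a x ha hx ga
    obtain ⟨-, -, cgb⟩ := hgc b x hb hx gb
    have h1 : p * B a b * p⁻¹ = B a b := hBconj a b a b p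
      (by rw [hp, ← cga 1 1]; group) (by rw [hp, ← cgb 1 1]; group)
    obtain ⟨z, hz, rfl⟩ : ∃ z, π z = 1 ∧ q = B a b * z :=
      ⟨(B a b)⁻¹ * q, by rw [map_mul, map_inv, hπB a b y ha hb hd, hq, inv_mul_cancel], by group⟩
    have h2' : Commute p (B a b) := mul_inv_eq_iff_eq_mul.1 h1
    exact h2'.mul_right (ker_commute hc hz p).symm
  have hcom : ∀ r s, r < D.nroots → s < D.nroots → gcT T r s = true →
      ∀ p q, π p = X.x r 1 → π q = X.x s 1 → Commute p q := by
    intro r s hr hs h p q hp hq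
    obtain ⟨n1, n2, -⟩ := hgc r s hr hs h
    obtain ⟨hWl, hWr⟩ := hW r hr
    set s' := StGen.rwd D (W r) s with hs'
    have hs'l : s' < D.nroots := StGen.rwd_lt C _ hWl hs
    have m1 : s' ≠ r₀ := fun e => n1 (by
      rw [← StGen.rwd_rev C (W r).reverse (fun i hi => hWl i (List.mem_reverse.1 hi)) hr,
        ← StGen.rwd_rev C (W r).reverse (fun i hi => hWl i (List.mem_reverse.1 hi)) hs, List.reverse_reverse,
        hWr, ← hs', e])
    have m2 : s' ≠ T.ng r₀ := fun e => n2 (by
      have hrev : ∀ i ∈ (W r).reverse, i < D.rank := fun i hi => hWl i (List.mem_reverse.1 hi)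
      rw [← StGen.rwd_rev C (W r).reverse hrev (C.root.neg_lt r hr),
        ← StGen.rwd_rev C (W r).reverse hrev hs, List.reverse_reverse,
        StGen.rwd_neg C _ hWl hr, hWr, ← hs', e, C.tables.neg r₀ hr₀])
    have hg' : gcT T r₀ s' = true := by
      obtain ⟨f, hf, hf'⟩ := commTerms_rwd C (W r) hWl r hr s hs
      rw [hWr, ← hs'] at hf
      simp only [gcT, Bool.and_eq_true, List.all_eq_true] at h ⊢
      refine ⟨⟨?_, ?_⟩, fun c hc' => ?_⟩
      · rw [Bool.not_eq_true', ← Bool.not_eq_true]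
        exact fun e => m1 (Nat.eq_of_beq_eq_true e).symm
      · rw [Bool.not_eq_true', ← Bool.not_eq_true]
        intro e
        refine m2 ?_
        have e' := Nat.eq_of_beq_eq_true e
        rw [← C.tables.neg s' hs'l] at e'
        rw [← C.tables.neg r₀ hr₀, e', C.root.neg_neg' hs'l]
      · rw [C.commT_eq hr₀ hs'l, hf, List.mem_map] at hc'
        obtain ⟨d, hd, rfl⟩ := hc'
        rw [(hf' d).2]
        exact h.2 d (by rw [C.commT_eq hr hs]; exact hd)
    have hok : sidesOK T r₀ s' = true ∨ sidesOK T s' r₀ = true := by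
      have hb := hbase s' (C.tables.nroots ▸ hs'l)
      rcases hb with hb | hb
      · exfalso
        rcases hb with hb | hb
        · exact m1 (Nat.eq_of_beq_eq_true hb)
        · exact m2 (Nat.eq_of_beq_eq_true hb)
      · rw [hg'] at hb
        simpa using hb
    set e := L (X.nw (W r))
    have hp' : π (e * p * e⁻¹) = X.x r₀ 1 := by
      rw [map_mul, map_mul, map_inv, hp, hnw _ hWl r hr, hWr]
    have hq' : π (e * q * e⁻¹) = X.x s' 1 := by
      rw [map_mul, map_mul, map_inv, hq, hnw _ hWl s hs]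
    have hpq : Commute (e * p * e⁻¹) (e * q * e⁻¹) := by
      rcases hok with h' | h'
      · exact hside r₀ s' hr₀ hs'l h' _ _ hp' hq'
      · exact (hside s' r₀ hs'l hr₀ h' _ _ hq' hp').symm
    exact (Commute.conj_iff e).1 hpq
  -- the base root
  have hB₀ : B a₀ b₀ * B a₀ b₀ = 1 := by
    have hcm : Commute (L (X.x a₀ 1)) (B a₀ b₀) :=
      hcom a₀ r₀ ha₀ hr₀ hga₀ _ _ (hL _) (hπB a₀ b₀ r₀ ha₀ hb₀ hdec₀)
    have h := hBv a₀ b₀ (L (X.x a₀ 1))⁻¹ (L (X.x b₀ 1))
      (by rw [map_inv, hL, X.x_inv ha₀, hneg]) (hL _)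
    have h' : L (X.x a₀ 1) * (B a₀ b₀)⁻¹ * (L (X.x a₀ 1))⁻¹ = B a₀ b₀ := by
      conv_rhs => rw [← h]
      simp only [B]; group
    rw [hcm.inv_right.eq, mul_assoc, mul_inv_cancel, mul_one] at h'
    rw [← inv_eq_iff_mul_eq_one, h']
  have hP : ∀ k (P : List (ℕ × ℕ)), (∀ p ∈ P, p.1 < D.nroots ∧ p.2 < D.nroots ∧ B p.1 p.2 = B a₀ b₀) →
      ∀ p ∈ reach T (orthGens T r₀) k P, p.1 < D.nroots ∧ p.2 < D.nroots ∧ B p.1 p.2 = B a₀ b₀ := by
    intro k
    induction k with
    | zero => intro P hP; exact hP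
    | succ k ih =>
      intro P hP
      refine ih _ ?_
      have hnew : ∀ p ∈ (P.flatMap fun p => (p.2, p.1) :: (orthGens T r₀).map fun i => (T.w i p.1, T.w i p.2)),
          p.1 < D.nroots ∧ p.2 < D.nroots ∧ B p.1 p.2 = B a₀ b₀ := by
        intro p hp
        simp only [List.mem_flatMap, List.mem_cons, List.mem_map] at hp
        obtain ⟨⟨a, b⟩, hab, hp⟩ := hp
        obtain ⟨ha, hb, hB⟩ := hP _ hab
        rcases hp with rfl | ⟨i, hi, rfl⟩
        · exact ⟨hb, ha, by rw [hBsymm, hB, inv_eq_iff_mul_eq_one, hB₀]⟩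
        simp only [orthGens, List.mem_filter, List.mem_range, Bool.and_eq_true] at hi
        obtain ⟨hil, ⟨g1, g2⟩, hfix⟩ := hi
        rw [← C.tables.rank] at hil
        have hsp : T.sp i = D.simple i := (C.tables.simple i hil).symm
        have hspl : D.simple i < D.nroots := C.root.simple_lt i hil
        rw [hsp] at g1 g2
        rw [← C.tables.neg _ hspl] at g2
        obtain ⟨y1, hy1⟩ : ∃ y, π y = X.x (D.simple i) 1 := hπ _
        obtain ⟨y2, hy2⟩ : ∃ y, π y = X.x (D.neg (D.simple i)) 1 := hπ _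
        have hpe : π (y1 * y2 * y1) = X.nb i 1 := by
          rw [map_mul, map_mul, hy1, hy2, StGen.nb, ChevalleyDatum.nWord]
          simp [StGen.wd, wdOf, hneg, mul_assoc]
        have hact : ∀ s < D.nroots, π (y1 * y2 * y1) * X.x s 1 * (π (y1 * y2 * y1))⁻¹ = X.x (T.w i s) 1 := by
          intro s hs
          rw [hpe, X.nb_conj hcc hil s hs 1, ← C.refl i hil s hs]
          rcases h01 (eta T F i s) with e | e
          · exact absurd e (eta_ne_zero i s)
          · rw [e, one_mul]
        have hBr : π (B a b) = X.x r₀ 1 := by rw [hB, hπB a₀ b₀ r₀ ha₀ hb₀ hdec₀]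
        have hcy : Commute (y1 * y2 * y1) (B a b) :=
          ((hcom _ r₀ hspl hr₀ g1 _ _ hy1 hBr).mul_left (hcom _ r₀ (C.root.neg_lt _ hspl) hr₀ g2 _ _ hy2 hBr)).mul_left
            (hcom _ r₀ hspl hr₀ g1 _ _ hy1 hBr)
        refine ⟨?_, ?_, ?_⟩
        · show T.w i a < D.nroots
          rw [← C.refl i hil a ha]; exact C.root.refl_lt i hil a ha
        · show T.w i b < D.nroots
          rw [← C.refl i hil b hb]; exact C.root.refl_lt i hil b hb
        · show B (T.w i a) (T.w i b) = B a₀ b₀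
          rw [← hBconj a b _ _ _ (hact a ha) (hact b hb), hcy.eq, mul_inv_cancel_right, hB]
      have hfold : ∀ (l : List (ℕ × ℕ)) (acc : List (ℕ × ℕ)),
          (∀ p ∈ l, p.1 < D.nroots ∧ p.2 < D.nroots ∧ B p.1 p.2 = B a₀ b₀) →
          (∀ p ∈ acc, p.1 < D.nroots ∧ p.2 < D.nroots ∧ B p.1 p.2 = B a₀ b₀) →
          ∀ p ∈ l.foldl (fun acc p => bif acc.any (fun q => Nat.beq q.1 p.1 && Nat.beq q.2 p.2) then acc
            else p :: acc) acc, p.1 < D.nroots ∧ p.2 < D.nroots ∧ B p.1 p.2 = B a₀ b₀ := by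
        intro l
        induction l with
        | nil => intro acc _ h; exact h
        | cons x l ihl =>
          intro acc hl hacc
          refine ihl _ (fun p hp => hl p (by simp [hp])) ?_
          intro p hp
          cases hx : acc.any (fun q => Nat.beq q.1 x.1 && Nat.beq q.2 x.2) <;> simp only [hx] at hp
          · simp only [cond_false, List.mem_cons] at hp
            rcases hp with rfl | hp
            · exact hl _ (by simp)
            · exact hacc p hp
          · exact hacc p hp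
      exact hfold _ _ hnew hP
  let Φ : ℕ → E := fun r => (L (X.nw (W r)))⁻¹ * B a₀ b₀ * L (X.nw (W r))
  let φ : ℕ → F → E := fun r t => if t = 0 then 1 else Φ r
  have hπΦ : ∀ r < D.nroots, π (Φ r) = X.x r 1 := fun r hr => by
    simp only [Φ, map_mul, map_inv]
    rw [hπB a₀ b₀ r₀ ha₀ hb₀ hdec₀, ← (hW r hr).2, ← hnw _ (hW r hr).1 r hr 1]
    group
  have hφ1 : ∀ r, φ r 1 = Φ r := fun r => if_neg one_ne_zero
  have hφ0 : ∀ r, φ r 0 = 1 := fun r => if_pos rfl
  have hπφ : ∀ r < D.nroots, ∀ t, π (φ r t) = X.x r t := fun r hr t => by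
    rcases h01 t with rfl | rfl
    · rw [hφ0, map_one, X.x_zero hr]
    · rw [hφ1, hπΦ r hr]
  refine ⟨{
    φ := φ
    central := hc
    π_φ := hπφ
    add := ?_
    S := ∅
    cov := fun χ hχ => absurd hχ (Set.notMem_empty χ)
    act := fun χ hχ => absurd hχ (Set.notMem_empty χ)
    kill := ?_ }⟩
  · intro r hr t u
    rcases h01 t with rfl | rfl
    · rw [hφ0, one_mul, zero_add]
    · rcases h01 u with rfl | rfl
      · rw [hφ0, mul_one, add_zero]
      · rw [hφ1, show (1 : F) + 1 = 0 by linear_combination h2, hφ0]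
        calc Φ r * Φ r = (L (X.nw (W r)))⁻¹ * (B a₀ b₀ * B a₀ b₀) * L (X.nw (W r)) := by
              simp only [Φ]; group
          _ = 1 := by rw [hB₀]; group
  · intro r hr s hs n1 n2 f hdef _ hf1 hf2 _ t u
    have z1 : ∀ u, f 0 u = 1 := fun u => by
      have := hf1 0 0 u
      rwa [add_zero, eq_comm, mul_eq_left] at this
    have z2 : ∀ t, f t 0 = 1 := fun t => by
      have := hf2 t 0 0
      rwa [add_zero, eq_comm, mul_eq_left] at this
    rcases h01 t with rfl | rfl
    · exact z1 u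
    rcases h01 u with rfl | rfl
    · exact z2 1
    rw [hdef, hφ1, hφ1]
    by_cases hg : gcT T r s = true
    · obtain ⟨-, -, hGc⟩ := hgc r s hr hs hg
      have hwd : wdOf φ (D.commWord F r s 1 1) = 1 := by
        refine List.prod_eq_one fun g hg' => ?_
        simp only [ChevalleyDatum.commWord, List.map_map, List.mem_map, Function.comp_apply] at hg'
        obtain ⟨c, hc', rfl⟩ := hg'
        simp only [gcT, Bool.and_eq_true, List.all_eq_true] at hg
        rw [C.commT_eq hr hs] at hg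
        simp only [hev _ (Nat.eq_of_beq_eq_true (hg.2 c hc')), zero_mul]
        exact hφ0 _
      rw [hwd, mul_one, (hcom r s hr hs hg _ _ (hπΦ r hr) (hπΦ s hs)).eq, inv_mul_cancel]
    · obtain ⟨hWl, hWr⟩ := hW r hr
      set s' := StGen.rwd D (W r) s with hs'
      have hs'l : s' < D.nroots := StGen.rwd_lt C _ hWl hs
      obtain ⟨g, hgm, hg'⟩ := commTerms_rwd C (W r) hWl r hr s hs
      rw [hWr, ← hs'] at hgm
      have hrev : ∀ i ∈ (W r).reverse, i < D.rank := fun i hi => hWl i (List.mem_reverse.1 hi)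
      have m1 : s' ≠ r₀ := fun e => n1 (by
        rw [← StGen.rwd_rev C (W r).reverse hrev hr, ← StGen.rwd_rev C (W r).reverse hrev hs,
          List.reverse_reverse, hWr, ← hs', e])
      have m2 : s' ≠ T.ng r₀ := fun e => n2 (by
        rw [← StGen.rwd_rev C (W r).reverse hrev (C.root.neg_lt r hr),
          ← StGen.rwd_rev C (W r).reverse hrev hs, List.reverse_reverse,
          StGen.rwd_neg C _ hWl hr, hWr, ← hs', e, C.tables.neg r₀ hr₀])
      have hb := (hbase s' (C.tables.nroots ▸ hs'l)).resolve_left fun h => by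
        rcases h with h | h
        · exact m1 (Nat.eq_of_beq_eq_true h)
        · exact m2 (Nat.eq_of_beq_eq_true h)
      cases hg0 : gcT T r₀ s' <;> rw [hg0] at hb
      swap
      · exfalso
        refine hg ?_
        simp only [gcT, Bool.and_eq_true, List.all_eq_true] at hg0 ⊢
        refine ⟨⟨?_, ?_⟩, fun c hc' => ?_⟩
        · rw [Bool.not_eq_true', ← Bool.not_eq_true]
          exact fun e => n1 (Nat.eq_of_beq_eq_true e).symm
        · rw [Bool.not_eq_true', ← Bool.not_eq_true]
          intro e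
          have e' := Nat.eq_of_beq_eq_true e
          rw [← C.tables.neg s hs] at e'
          exact n2 (by rw [e', C.root.neg_neg' hs])
        · rw [C.commT_eq hr hs] at hc'
          have := hg0.2 (g c) (by rw [C.commT_eq hr₀ hs'l, hgm]; exact List.mem_map_of_mem hc')
          rwa [(hg' c).2] at this
      simp only [cond_false, List.any_eq_true, List.mem_range] at hb
      obtain ⟨z', -, hz'⟩ := hb
      have hrs : ∃ z, decT T r s z = true := by
        simp only [decT, Bool.and_eq_true] at hz' ⊢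
        obtain ⟨-, hz'⟩ := hz'
        rw [C.commT_eq hr₀ hs'l, hgm] at hz'
        rw [C.commT_eq hr hs]
        rcases hl : D.commTerms r s with _ | ⟨c, _ | ⟨c', l⟩⟩ <;> rw [hl] at hz'
        · simp at hz'
        swap
        · simp at hz'
        simp only [List.map_cons, List.map_nil, Bool.and_eq_true, (hg' c).2] at hz'
        refine ⟨c.1, ⟨?_, ?_⟩, by simp [hz'.2, Nat.beq_refl]⟩
        · rw [Bool.not_eq_true', ← Bool.not_eq_true]
          exact fun e => n1 (Nat.eq_of_beq_eq_true e).symm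
        · rw [Bool.not_eq_true', ← Bool.not_eq_true, ← C.tables.neg r hr]
          exact fun e => n2 (Nat.eq_of_beq_eq_true e)
      obtain ⟨z, hz⟩ := hrs
      obtain ⟨-, -, hzl, hw⟩ := hdc r s z hr hs hz
      rw [hw, wdOf, List.map_singleton, List.prod_singleton, hφ1]
      have hv := hBv r s (Φ r) (Φ s) (hπΦ r hr) (hπΦ s hs)
      obtain ⟨hZl, hZr⟩ := hW z hzl
      have hzdec : decT T (StGen.rwd D (W z) r) (StGen.rwd D (W z) s) r₀ = true := by
        obtain ⟨g2, hgm2, hg2⟩ := commTerms_rwd C (W z) hZl r hr s hs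
        have hr' := StGen.rwd_lt C _ hZl hr
        have hs2 := StGen.rwd_lt C _ hZl hs
        have hrev2 : ∀ i ∈ (W z).reverse, i < D.rank := fun i hi => hZl i (List.mem_reverse.1 hi)
        simp only [decT, Bool.and_eq_true] at hz ⊢
        refine ⟨⟨?_, ?_⟩, ?_⟩
        · rw [Bool.not_eq_true', ← Bool.not_eq_true]
          intro e
          refine n1 ?_
          rw [← StGen.rwd_rev C (W z).reverse hrev2 hs, ← StGen.rwd_rev C (W z).reverse hrev2 hr,
            List.reverse_reverse, Nat.eq_of_beq_eq_true e]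
        · rw [Bool.not_eq_true', ← Bool.not_eq_true, ← C.tables.neg _ hr', ← StGen.rwd_neg C _ hZl hr]
          intro e
          refine n2 ?_
          rw [← StGen.rwd_rev C (W z).reverse hrev2 hs,
            ← StGen.rwd_rev C (W z).reverse hrev2 (C.root.neg_lt r hr), List.reverse_reverse,
            Nat.eq_of_beq_eq_true e]
        · rw [C.commT_eq hr' hs2, hgm2]
          obtain ⟨-, hz⟩ := hz
          rw [C.commT_eq hr hs] at hz
          rcases hl : D.commTerms r s with _ | ⟨c, _ | ⟨c', l⟩⟩ <;> rw [hl] at hz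
          · simp at hz
          swap
          · simp at hz
          simp only [List.map_cons, List.map_nil, Bool.and_eq_true] at hz ⊢
          rw [(hg2 c).1, (hg2 c).2, Nat.eq_of_beq_eq_true hz.1, hZr]
          exact ⟨Nat.beq_refl _, hz.2⟩
      have hmem := (hreach (StGen.rwd D (W z) r) (C.tables.nroots ▸ StGen.rwd_lt C _ hZl hr)
        (StGen.rwd D (W z) s) (C.tables.nroots ▸ StGen.rwd_lt C _ hZl hs)).resolve_left (by rw [hzdec]; simp)
      obtain ⟨q, hq, hq1, hq2⟩ := hmem
      obtain ⟨-, -, hqB⟩ := hP steps [(a₀, b₀)] (by simp [ha₀, hb₀]) q hq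
      rw [Nat.eq_of_beq_eq_true hq1, Nat.eq_of_beq_eq_true hq2,
        ← hBconj r s _ _ _ (hnw _ hZl r hr 1) (hnw _ hZl s hs 1)] at hqB
      have hBz : B r s = Φ z := by simp only [Φ]; rw [← hqB]; group
      calc (Φ r * Φ s * Φ z)⁻¹ * (Φ s * Φ r) = (Φ z)⁻¹ * ((Φ r * Φ s)⁻¹ * (Φ s * Φ r)) := by group
        _ = 1 := by rw [hv, hBz, inv_mul_cancel]

end Cfsg.Agent.Lib.SteinbergPres.Cover
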