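import Cfsg.Agent.Lib.SteinbergPres.Cover.Two
import Cfsg.Agent.Lib.Chev.All

/-!
The tables for the field with two elements.
-/

set_option autoImplicit false
set_option maxRecDepth 8000

namespace Cfsg.Agent.Lib.SteinbergPres.Cover

open Cfsg.Lie Cfsg.Agent.Lib.Chev

theorem two_E6 : check2 E6.fast 71 46 70 30 6 = true := by decide +kernel
theorem two_E7 : check2 E7.fast 125 93 124 40 9 = true := by decide +kernel

end Cfsg.Agent.Lib.SteinbergPres.Cover
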