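import Cfsg.Agent.Lib.SteinbergPres.Cover.Univ
import Cfsg.Agent.Lib.SteinbergPres.Cover.Checks

/-!
The tables for universality.
-/

set_option autoImplicit false
set_option maxRecDepth 4000

namespace Cfsg.Agent.Lib.SteinbergPres.Cover

open Cfsg.Lie Cfsg.Agent.Lib.Chev

theorem univ_G2 : univCheck G2.fast = true := by decide +kernel
theorem univ_B2 : univCheck B2.fast = true := by decide +kernel
theorem univ_D4 : univCheck D4.fast = true := by decide +kernel
theorem univ_F4 : univCheck F4.fast = true := by decide +kernel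
theorem univ_E6 : univCheck E6.fast = true := by decide +kernel
theorem univ_E7 : univCheck E7.fast = true := by decide +kernel
theorem univ_E8 : univCheck E8.fast = true := by decide +kernel

theorem exists_checked_univ {D : ChevalleyDatum}
    (hD : D ∈ [chevG2, chevB2, chevD4, chevF4, chevE6, chevE7, chevE8]) :
    ∃ T : Fast, Checked D T ∧ coverCheck T = true ∧ univCheck T = true := by
  simp only [List.mem_cons, List.not_mem_nil, or_false] at hD
  rcases hD with rfl | rfl | rfl | rfl | rfl | rfl | rfl
  exacts [⟨_, G2.checked, cover_G2, univ_G2⟩, ⟨_, B2.checked, cover_B2, univ_B2⟩,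
    ⟨_, D4.checked, cover_D4, univ_D4⟩, ⟨_, F4.checked, cover_F4, univ_F4⟩,
    ⟨_, E6.checked, cover_E6, univ_E6⟩, ⟨_, E7.checked, cover_E7, univ_E7⟩,
    ⟨_, E8.checked, cover_E8, univ_E8⟩]

end Cfsg.Agent.Lib.SteinbergPres.Cover
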